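import Mathlib
import Cfsg.Agent.Lib.Blocks.RegPart2
import Cfsg.Agent.Lib.Contrib.Proj
import Cfsg.Agent.Lib.Contrib.Family

/-!
# Class functions vanishing on `p`-singular elements

A combination with local coefficients of irreducible characters vanishing on the `p`-singular elements
has values divisible by the order of the centralizer.
-/

set_option linter.unusedSectionVars false
set_option autoImplicit false
set_option linter.style.haveILetI false

namespace Cfsg.Agent.Lib.KleinBlock.Vanish

open Cfsg MonoidAlgebra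
open Cfsg.Agent.Lib.Blocks.Local Cfsg.Agent.Lib.Blocks.Central
open Cfsg.Agent.Lib.Char.GenLattice Cfsg.Agent.Lib.Char.Basic Cfsg.Agent.Lib.Char.Ortho
open Cfsg.Agent.Lib.Contrib.Proj Cfsg.Agent.Lib.Contrib.Family Cfsg.Agent.Lib.Contrib.Section
open Cfsg.Agent.Lib.BlockH.Regular
open scoped ComplexConjugate

universe u

section Basic

variable {K : Type u} [Group K] [Fintype K] {p : ℕ} {M : Ideal AlgInt} [Fact p.Prime]

/-- The value at the identity of a combination with local coefficients, vanishing on singular elements. -/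
theorem memLocalRing_div_one [Fintype (IrrCharacter K)] (hM : IsPModular p M) {A : K → ℂ} (hcl : IsClassFunction K A)
    (hl : ∀ ξ : IrrCharacter K, MemLocalRing M (classInner A (ξ : K → ℂ)))
    (hv : ∀ z : K, p ∣ orderOf z → A z = 0) :
    MemLocalRing M (A 1 / (Nat.card K : ℂ)) := by
  classical
  haveI := isPrime_of_pModular hM
  obtain ⟨Q⟩ : Nonempty (Sylow p K) := inferInstance
  letI : Fintype (Q : Subgroup K) := Fintype.ofFinite _
  have hexp := Cfsg.Agent.Lib.Char.Complete.classFunction_eq_sum hcl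
  have h1 : ∑ q : (Q : Subgroup K), A q = A 1 := by
    rw [Finset.sum_eq_single (1 : (Q : Subgroup K))]
    · simp
    · intro u _ hu
      apply hv
      rw [Subgroup.orderOf_coe]
      obtain ⟨k, hk⟩ := (IsPGroup.iff_orderOf.mp Q.isPGroup') u
      have hk0 : k ≠ 0 := by
        rintro rfl
        apply hu
        rw [pow_zero] at hk
        exact orderOf_eq_one_iff.mp hk
      rw [hk]
      exact dvd_pow_self p hk0
    · simp
  have hQ0 : ((Nat.card (Q : Subgroup K) : ℕ) : ℂ) ≠ 0 := Nat.cast_ne_zero.mpr Nat.card_pos.ne'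
  have hn : ∀ ξ : IrrCharacter K, ∃ n : ℤ, ∑ q : (Q : Subgroup K), (ξ : K → ℂ) q =
      (Nat.card (Q : Subgroup K) : ℂ) * n := by
    intro ξ
    obtain ⟨n, hn⟩ := exists_int_classInner (isGenChar_restrict (Q : Subgroup K) (isGenChar_of_isIrr ξ.2))
      (isGenChar_one (G := (Q : Subgroup K)))
    refine ⟨n, ?_⟩
    rw [classInner_def] at hn
    simp only [map_one, mul_one] at hn
    rw [← hn]
    field_simp
  choose n hn using hn
  have h2 : A 1 = (Nat.card (Q : Subgroup K) : ℂ) * ∑ ξ : IrrCharacter K, classInner A (ξ : K → ℂ) * (n ξ : ℂ) := by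
    rw [← h1, Finset.mul_sum]
    have h3 : ∀ q : (Q : Subgroup K), A q = ∑ ξ : IrrCharacter K, classInner A (ξ : K → ℂ) * (ξ : K → ℂ) q := by
      intro q
      conv_lhs => rw [hexp]
      rw [Finset.sum_apply]
      rfl
    simp only [h3]
    rw [Finset.sum_comm]
    refine Fintype.sum_congr _ _ fun ξ => ?_
    rw [← Finset.mul_sum, hn ξ]
    ring
  have hidx : Nat.card K = Nat.card (Q : Subgroup K) * (Q : Subgroup K).index :=
    (Subgroup.card_mul_index (Q : Subgroup K)).symm
  have hinot : ¬ p ∣ (Q : Subgroup K).index := Q.not_dvd_index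
  have h3 : A 1 / (Nat.card K : ℂ) = (∑ ξ : IrrCharacter K, classInner A (ξ : K → ℂ) * (n ξ : ℂ)) *
      (((Q : Subgroup K).index : ℕ) : ℂ)⁻¹ := by
    rw [h2, hidx, Nat.cast_mul]
    have hi0 : (((Q : Subgroup K).index : ℕ) : ℂ) ≠ 0 :=
      Nat.cast_ne_zero.mpr (fun h => hinot (h ▸ dvd_zero p))
    field_simp
  rw [h3]
  refine memLocalRing_mul (memLocalRing_sum _ _ fun ξ _ => memLocalRing_mul (hl ξ) ?_)
    (memLocalRing_natCast_inv hM hinot)
  exact memLocalRing_of_isIntegral (isIntegral_intCast (n ξ))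

theorem dvd_orderOf_mul {s z : K} (hc : Commute s z) (hs : ¬ p ∣ orderOf s) (hz : p ∣ orderOf z) :
    p ∣ orderOf (s * z) := by
  have hp : p.Prime := Fact.out
  have h1 : (s * z) ^ orderOf s = z ^ orderOf s := by
    rw [hc.mul_pow, pow_orderOf_eq_one, one_mul]
  have h2 : orderOf (z ^ orderOf s) ∣ orderOf (s * z) := by
    rw [← h1]
    exact orderOf_pow_dvd _
  rw [orderOf_pow' z (orderOf_pos s).ne'] at h2
  refine dvd_trans ?_ h2
  set d := Nat.gcd (orderOf z) (orderOf s) with hd
  have hd1 : d ∣ orderOf z := Nat.gcd_dvd_left _ _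
  have hd2 : ¬ p ∣ d := fun h => hs (h.trans (Nat.gcd_dvd_right _ _))
  have h3 : orderOf z = d * (orderOf z / d) := (Nat.mul_div_cancel' hd1).symm
  rw [h3] at hz
  exact (hp.dvd_mul.mp hz).resolve_left hd2

/-- **The values of a combination with local coefficients vanishing on the singular elements.** -/
theorem memLocalRing_div_of_vanish [Fintype (IrrCharacter K)] (hM : IsPModular p M) {f : K → ℂ} (a : IrrCharacter K → ℂ)
    (ha : ∀ i, MemLocalRing M (a i)) (hf : ∀ z, f z = ∑ i : IrrCharacter K, a i * (i : K → ℂ) z)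
    (hv : ∀ z : K, p ∣ orderOf z → f z = 0) {s : K} (hs : ¬ p ∣ orderOf s) :
    MemLocalRing M (f s / (Nat.card (Subgroup.centralizer ({s} : Set K)) : ℂ)) := by
  classical
  haveI := isPrime_of_pModular hM
  letI : Fintype (Subgroup.centralizer ({s} : Set K)) := Fintype.ofFinite _
  haveI := finite_irrCharacter (G := Subgroup.centralizer ({s} : Set K))
  letI : Fintype (IrrCharacter (Subgroup.centralizer ({s} : Set K))) := Fintype.ofFinite _
  set C := Subgroup.centralizer ({s} : Set K) with hC
  have hcomm : ∀ c : C, (c : K) * s = s * (c : K) := fun c => Subgroup.mem_centralizer_singleton_iff.mp c.2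
  have hfcl : ∀ (c g : K), f (c * g * c⁻¹) = f g := by
    intro c g
    rw [hf, hf]
    refine Fintype.sum_congr _ _ fun i => ?_
    rw [isClassFunction_of_isIrrCharacter i.2 g c]
  set z₀ : C := ⟨s, by rw [hC, Subgroup.mem_centralizer_singleton_iff]⟩ with hz₀
  have hz₀c : ∀ g : C, z₀ * g = g * z₀ := fun g => Subtype.ext (hcomm g).symm
  have hcl : IsClassFunction C (fun z : C => f (s * (z : K))) := by
    intro g c
    change f (s * ((c : K) * (g : K) * (c : K)⁻¹)) = f (s * (g : K))
    have e : s * ((c : K) * (g : K) * (c : K)⁻¹) = (c : K) * (s * (g : K)) * (c : K)⁻¹ := by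
      calc s * ((c : K) * (g : K) * (c : K)⁻¹) = (s * (c : K)) * (g : K) * (c : K)⁻¹ := by group
        _ = ((c : K) * s) * (g : K) * (c : K)⁻¹ := by rw [hcomm c]
        _ = _ := by group
    rw [e, hfcl]
  have hl : ∀ ξ : IrrCharacter C, MemLocalRing M (classInner (fun z : C => f (s * (z : K))) (ξ : C → ℂ)) := by
    intro ξ
    have e : (fun z : C => f (s * (z : K))) = fun z : C => ∑ i : IrrCharacter K, a i * (fun c : C => (i : K → ℂ) (c : K)) (z₀ * z) := by
      funext z
      rw [hf]
      rfl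
    rw [e, classInner_linear]
    refine memLocalRing_sum _ _ fun i _ => memLocalRing_mul (ha i) ?_
    exact memLocalRing_classInner_shift (isCharacter_restrict C (isCharacter_of_isIrrCharacter i.2)) hz₀c ξ
  have hv' : ∀ z : C, p ∣ orderOf z → f (s * (z : K)) = 0 := by
    intro z hz
    apply hv
    apply dvd_orderOf_mul _ hs
    · rwa [Subgroup.orderOf_coe]
    · exact (hcomm z).symm
  have h := memLocalRing_div_one hM hcl hl hv'
  simpa using h

/-- **The values of the block projection.** -/
theorem memLocalRing_mul_PP_div [Fintype (IrrCharacter K)] (hM : IsPModular p M) {b : Set (IrrCharacter K)} (hb : IsPBlock M b)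
    {h : K → ℂ} (hl : ∀ ξ : IrrCharacter K, MemLocalRing M (classInner h (ξ : K → ℂ))) {s : K} (hs : ¬ p ∣ orderOf s) :
    MemLocalRing M (((p ^ blockDefect p b : ℕ) : ℂ) * PP p b h s /
      (Nat.card (Subgroup.centralizer ({s} : Set K)) : ℂ)) := by
  classical
  haveI := isPrime_of_pModular hM
  have hcomb : ∀ ξ : IrrCharacter K, ∃ c : IrrCharacter K → ℤ, ξ ∈ b →
      ((p ^ blockDefect p b : ℕ) : ℂ) • pRegularPart p (ξ : K → ℂ) = ∑ i, c i • (i : K → ℂ) := by
    intro ξ
    by_cases hξ : ξ ∈ b
    · obtain ⟨c, -, hc⟩ := Cfsg.Agent.Lib.Blocks.RegPart2.exists_int_comb_defect hM hb hξ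
      exact ⟨c, fun _ => hc⟩
    · exact ⟨0, fun h => absurd h hξ⟩
  choose c hc using hcomb
  refine memLocalRing_div_of_vanish (f := fun z => ((p ^ blockDefect p b : ℕ) : ℂ) * PP p b h z) hM
    (fun i => ∑ ξ : IrrCharacter K, cc b h ξ * (c ξ i : ℂ)) ?_ ?_ ?_ hs
  · intro i
    exact memLocalRing_sum _ _ fun ξ _ => memLocalRing_mul (memLocalRing_cc hl ξ)
      (memLocalRing_of_isIntegral (isIntegral_intCast _))
  · intro z
    rw [PP_eq_sum_cc, Finset.mul_sum]
    simp only [Finset.sum_mul]
    rw [Finset.sum_comm]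
    refine Fintype.sum_congr _ _ fun ξ => ?_
    by_cases hξ : ξ ∈ b
    · have h1 := congrFun (hc ξ hξ) z
      simp only [Pi.smul_apply, smul_eq_mul, Finset.sum_apply, zsmul_eq_mul] at h1
      rw [mul_left_comm, h1, Finset.mul_sum]
      refine Fintype.sum_congr _ _ fun i => ?_
      rw [Pi.mul_apply, mul_assoc]
      rfl
    · rw [cc_of_notMem h hξ]
      simp
  · intro z hz
    have : PP p b h z = 0 := by
      rw [PP, pRegularPart_apply, if_neg (fun hr => hr hz)]
    rw [this, mul_zero]

end Basic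

end Cfsg.Agent.Lib.KleinBlock.Vanish
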