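import Mathlib

/-!
# Three orthogonal sign vectors of length four

Two triples of pairwise orthogonal sign vectors of length four differ by a signed permutation.
-/

set_option autoImplicit false

namespace Cfsg.Agent.Lib.KleinBlock.Combi

universe u v w

theorem existsUnique_of_ortho {B : Type u} [Fintype B] (hB : Fintype.card B = 4) {a b : B → ℤ}
    (ha : ∀ χ, a χ = 1 ∨ a χ = -1) (hb : ∀ χ, b χ = 1 ∨ b χ = -1) (h1 : ∑ χ, a χ = 0) (h2 : ∑ χ, b χ = 0)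
    (h3 : ∑ χ, a χ * b χ = 0) {s t : ℤ} (hs : s = 1 ∨ s = -1) (ht : t = 1 ∨ t = -1) :
    ∃! χ, a χ = s ∧ b χ = t := by
  classical
  have key : ∑ χ, (1 + s * a χ) * (1 + t * b χ) = 4 := by
    have e : ∀ χ, (1 + s * a χ) * (1 + t * b χ) = 1 + s * a χ + t * b χ + s * t * (a χ * b χ) := by
      intro χ
      ring
    simp only [e, Finset.sum_add_distrib, ← Finset.mul_sum, h1, h2, h3]
    simp [hB]
  have each : ∀ χ, (1 + s * a χ) * (1 + t * b χ) = if a χ = s ∧ b χ = t then 4 else 0 := by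
    intro χ
    rcases ha χ with h | h <;> rcases hb χ with h' | h' <;> rcases hs with rfl | rfl <;>
      rcases ht with rfl | rfl <;> simp [h, h']
  simp only [each] at key
  rw [Finset.sum_ite, Finset.sum_const_zero, add_zero, Finset.sum_const, nsmul_eq_mul] at key
  have hc : (Finset.univ.filter fun χ => a χ = s ∧ b χ = t).card = 1 := by
    have : ((Finset.univ.filter fun χ => a χ = s ∧ b χ = t).card : ℤ) = 1 := by linarith
    exact_mod_cast this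
  obtain ⟨χ, hχ⟩ := Finset.card_eq_one.mp hc
  refine ⟨χ, ?_, ?_⟩
  · have : χ ∈ Finset.univ.filter fun χ => a χ = s ∧ b χ = t := by rw [hχ]; simp
    simpa using this
  · intro χ' h'
    have : χ' ∈ Finset.univ.filter fun χ => a χ = s ∧ b χ = t := by simpa using h'
    rw [hχ] at this
    simpa using this

theorem sign_mul {x y : ℤ} (hx : x = 1 ∨ x = -1) (hy : y = 1 ∨ y = -1) : x * y = 1 ∨ x * y = -1 := by
  rcases hx with rfl | rfl <;> rcases hy with rfl | rfl <;> simp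

theorem sign_sq {x : ℤ} (hx : x = 1 ∨ x = -1) : x * x = 1 := by
  rcases hx with rfl | rfl <;> simp

/-- The products of three orthogonal sign vectors. -/
theorem sum_prod_eq_zero {B : Type u} [Fintype B] {d₁ d₂ d₃ : B → ℤ} (h₁ : ∀ χ, d₁ χ = 1 ∨ d₁ χ = -1)
    (h23 : ∑ χ, d₂ χ * d₃ χ = 0) : ∑ χ, (d₁ χ * d₂ χ) * (d₁ χ * d₃ χ) = 0 := by
  rw [← h23]
  refine Fintype.sum_congr _ _ fun χ => ?_
  have := sign_sq (h₁ χ)
  calc (d₁ χ * d₂ χ) * (d₁ χ * d₃ χ) = (d₁ χ * d₁ χ) * (d₂ χ * d₃ χ) := by ring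
    _ = _ := by rw [this, one_mul]

/-- **Three orthogonal sign vectors.** -/
theorem exists_signed_bij_three {B : Type u} {C : Type v} [Fintype B] [Fintype C]
    (hB : Fintype.card B = 4) (hC : Fintype.card C = 4)
    {d₁ d₂ d₃ : B → ℤ} {e₁ e₂ e₃ : C → ℤ}
    (h₁ : ∀ χ, d₁ χ = 1 ∨ d₁ χ = -1) (h₂ : ∀ χ, d₂ χ = 1 ∨ d₂ χ = -1) (h₃ : ∀ χ, d₃ χ = 1 ∨ d₃ χ = -1)
    (k₁ : ∀ χ, e₁ χ = 1 ∨ e₁ χ = -1) (k₂ : ∀ χ, e₂ χ = 1 ∨ e₂ χ = -1) (k₃ : ∀ χ, e₃ χ = 1 ∨ e₃ χ = -1)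
    (h12 : ∑ χ, d₁ χ * d₂ χ = 0) (h13 : ∑ χ, d₁ χ * d₃ χ = 0) (h23 : ∑ χ, d₂ χ * d₃ χ = 0)
    (k12 : ∑ χ, e₁ χ * e₂ χ = 0) (k13 : ∑ χ, e₁ χ * e₃ χ = 0) (k23 : ∑ χ, e₂ χ * e₃ χ = 0) :
    ∃ (I : C ≃ B) (ε : C → ℤ), (∀ η, ε η = 1 ∨ ε η = -1) ∧ (∀ η, ε η * d₁ (I η) = e₁ η) ∧
      (∀ η, ε η * d₂ (I η) = e₂ η) ∧ (∀ η, ε η * d₃ (I η) = e₃ η) := by
  classical
  have ua : ∀ {s t : ℤ}, (s = 1 ∨ s = -1) → (t = 1 ∨ t = -1) → ∃! χ, d₁ χ * d₂ χ = s ∧ d₁ χ * d₃ χ = t :=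
    fun hs ht => existsUnique_of_ortho hB (fun χ => sign_mul (h₁ χ) (h₂ χ)) (fun χ => sign_mul (h₁ χ) (h₃ χ))
      h12 h13 (sum_prod_eq_zero h₁ h23) hs ht
  have ub : ∀ {s t : ℤ}, (s = 1 ∨ s = -1) → (t = 1 ∨ t = -1) → ∃! η, e₁ η * e₂ η = s ∧ e₁ η * e₃ η = t :=
    fun hs ht => existsUnique_of_ortho hC (fun χ => sign_mul (k₁ χ) (k₂ χ)) (fun χ => sign_mul (k₁ χ) (k₃ χ))
      k12 k13 (sum_prod_eq_zero k₁ k23) hs ht
  have hex : ∀ η, ∃ χ, d₁ χ * d₂ χ = e₁ η * e₂ η ∧ d₁ χ * d₃ χ = e₁ η * e₃ η := fun η =>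
    (ua (sign_mul (k₁ η) (k₂ η)) (sign_mul (k₁ η) (k₃ η))).exists
  choose I hI₂ hI₃ using hex
  have hinj : Function.Injective I := by
    intro η η' he
    have e1 := hI₂ η
    have e2 := hI₃ η
    rw [he, hI₂ η'] at e1
    rw [he, hI₃ η'] at e2
    exact (ub (sign_mul (k₁ η') (k₂ η')) (sign_mul (k₁ η') (k₃ η'))).unique ⟨e1.symm, e2.symm⟩ ⟨rfl, rfl⟩
  have hbij : Function.Bijective I := by
    rw [Fintype.bijective_iff_injective_and_card]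
    exact ⟨hinj, by rw [hB, hC]⟩
  refine ⟨Equiv.ofBijective I hbij, fun η => e₁ η * d₁ (I η), fun η => sign_mul (k₁ η) (h₁ _), fun η => ?_,
    fun η => ?_, fun η => ?_⟩
  · simp only [Equiv.ofBijective_apply]
    calc e₁ η * d₁ (I η) * d₁ (I η) = e₁ η * (d₁ (I η) * d₁ (I η)) := by ring
      _ = e₁ η := by rw [sign_sq (h₁ _), mul_one]
  · simp only [Equiv.ofBijective_apply]
    calc e₁ η * d₁ (I η) * d₂ (I η) = e₁ η * (d₁ (I η) * d₂ (I η)) := by ring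
      _ = e₁ η * (e₁ η * e₂ η) := by rw [hI₂ η]
      _ = (e₁ η * e₁ η) * e₂ η := by ring
      _ = e₂ η := by rw [sign_sq (k₁ _), one_mul]
  · simp only [Equiv.ofBijective_apply]
    calc e₁ η * d₁ (I η) * d₃ (I η) = e₁ η * (d₁ (I η) * d₃ (I η)) := by ring
      _ = e₁ η * (e₁ η * e₃ η) := by rw [hI₃ η]
      _ = (e₁ η * e₁ η) * e₃ η := by ring
      _ = e₃ η := by rw [sign_sq (k₁ _), one_mul]

/-- **The sign vectors on a set of three elements with an equivalence relation, trivial or total.** -/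
theorem exists_signed_bij {W : Type w} {B : Type u} {C : Type v} [Fintype B] [Fintype C]
    (hB : Fintype.card B = 4) (hC : Fintype.card C = 4) {x y z : W} (hW : ∀ u, u = x ∨ u = y ∨ u = z)
    {R : W → W → Prop} {d : W → B → ℤ} {e : W → C → ℤ}
    (hd : ∀ u χ, d u χ = 1 ∨ d u χ = -1) (he : ∀ u χ, e u χ = 1 ∨ e u χ = -1)
    (hRd : ∀ u v, R u v → d u = d v) (hRe : ∀ u v, R u v → e u = e v)
    (hod : ∀ u v, ¬ R u v → ∑ χ, d u χ * d v χ = 0) (hoe : ∀ u v, ¬ R u v → ∑ χ, e u χ * e v χ = 0)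
    (hcase : (∀ u v, R u v) ∨ (¬ R x y ∧ ¬ R x z ∧ ¬ R y z)) :
    ∃ (I : C ≃ B) (ε : C → ℤ), (∀ η, ε η = 1 ∨ ε η = -1) ∧ ∀ u η, ε η * d u (I η) = e u η := by
  classical
  rcases hcase with h | ⟨hxy, hxz, hyz⟩
  · have hcard : Fintype.card C = Fintype.card B := by rw [hB, hC]
    obtain I := Fintype.equivOfCardEq hcard
    refine ⟨I, fun η => e x η * d x (I η), fun η => sign_mul (he x η) (hd x _), fun u η => ?_⟩
    rw [hRd u x (h u x), hRe u x (h u x)]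
    calc e x η * d x (I η) * d x (I η) = e x η * (d x (I η) * d x (I η)) := by ring
      _ = e x η := by rw [sign_sq (hd x _), mul_one]
  · obtain ⟨I, ε, hε, h1, h2, h3⟩ := exists_signed_bij_three hB hC (hd x) (hd y) (hd z) (he x) (he y) (he z)
      (hod _ _ hxy) (hod _ _ hxz) (hod _ _ hyz) (hoe _ _ hxy) (hoe _ _ hxz) (hoe _ _ hyz)
    refine ⟨I, ε, hε, fun u η => ?_⟩
    rcases hW u with rfl | rfl | rfl
    · exact h1 η
    · exact h2 η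
    · exact h3 η

end Cfsg.Agent.Lib.KleinBlock.Combi
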