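import Mathlib
import Cfsg.Agent.Lib.KleinBlock.Card
import Cfsg.Agent.Lib.Contrib.Sec

/-!
# The sign of a member of a block with Klein four defect group, on a section

For an involution `x`, a block `b` of `C_G(x)` of defect two and rank one inducing a block `B` with four members, the
projections of the shifted characters are all `±` one function.
-/

set_option autoImplicit false
set_option linter.unusedSectionVars false
set_option linter.style.haveILetI false

namespace Cfsg.Agent.Lib.KleinBlock.Sign

open Cfsg MonoidAlgebra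
open Cfsg.Agent.Lib.Blocks.Local Cfsg.Agent.Lib.Blocks.Central
open Cfsg.Agent.Lib.BlockP.Defect
open Cfsg.Agent.Lib.Char.Ortho
open Cfsg.Agent.Lib.Contrib.Proj Cfsg.Agent.Lib.Contrib.Cyc Cfsg.Agent.Lib.Contrib.Sec
open Cfsg.Agent.Lib.Contrib.TwoMajor
open Cfsg.Agent.Lib.KleinBlock.Card
open scoped ComplexConjugate

universe u

section Inner

variable {K : Type u} [Group K] [Fintype K]

theorem eq_zero_of_classInner_self {f : K → ℂ} (h : classInner f f = 0) : f = 0 := by
  classical
  rw [classInner_def] at h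
  have hK : ((Nat.card K : ℕ) : ℂ)⁻¹ ≠ 0 := inv_ne_zero (Nat.cast_ne_zero.mpr Nat.card_pos.ne')
  have h1 := (mul_eq_zero.mp h).resolve_left hK
  have h2 : ∑ c : K, f c * conj (f c) = ((∑ c : K, Complex.normSq (f c) : ℝ) : ℂ) := by
    push_cast
    refine Fintype.sum_congr _ _ fun c => ?_
    rw [Complex.mul_conj]
  rw [h2] at h1
  have h3 : ∑ c : K, Complex.normSq (f c) = 0 := by exact_mod_cast h1
  have h4 := (Finset.sum_eq_zero_iff_of_nonneg (fun c _ => Complex.normSq_nonneg (f c))).mp h3
  funext c
  exact Complex.normSq_eq_zero.mp (h4 c (Finset.mem_univ c))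

theorem classInner_sub_mul_self (f g : K → ℂ) (d : ℤ) :
    classInner (fun y => f y - (d : ℂ) * g y) (fun y => f y - (d : ℂ) * g y) =
      classInner f f - d * classInner g f - d * classInner f g + d * d * classInner g g := by
  simp only [classInner_def]
  have : ∀ c : K, (f c - (d : ℂ) * g c) * conj (f c - (d : ℂ) * g c) =
      f c * conj (f c) - d * (g c * conj (f c)) - d * (f c * conj (g c)) + d * d * (g c * conj (g c)) := by
    intro c
    simp only [map_sub, map_mul, map_intCast]
    ring
  simp only [this, Finset.sum_add_distrib, Finset.sum_sub_distrib, ← Finset.mul_sum]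
  ring

end Inner

section Main

variable {G : Type u} [Group G] [Fintype G] [Fintype (IrrCharacter G)] {M : Ideal AlgInt}
  [Fact (Nat.Prime 2)] {x : G}
  [Fintype (Subgroup.centralizer ({x} : Set G))] [Fintype (IrrCharacter (Subgroup.centralizer ({x} : Set G)))]

/-- **The sign of a member of the block on a section.** -/
theorem exists_sign (hM : IsPModular 2 M) (hx : orderOf x = 2)
    {B : Set (IrrCharacter G)} (hB : IsPBlock M B) (hB4 : Nat.card B = 4)
    {b : Set (IrrCharacter (Subgroup.centralizer ({x} : Set G)))}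
    (hb : IsInducedBlock M (Subgroup.centralizer ({x} : Set G)) b B)
    (hq : blockDefect 2 b = blockDefect 2 B) (hq2 : blockDefect 2 b = 2) (hr : blockRank 2 b = 1)
    {τ : IrrCharacter G} (hτ : τ ∈ B) :
    ∃ d : IrrCharacter G → ℤ, (∀ χ ∈ B, d χ = 1 ∨ d χ = -1) ∧ d τ = 1 ∧
      (∀ χ ∈ B, PP 2 b (vt x χ) = fun y => (d χ : ℂ) * PP 2 b (vt x τ) y) ∧
      PP 2 b (vt x τ) ≠ 0 := by
  classical
  haveI := isPrime_of_pModular hM
  letI : Fintype B := Fintype.ofFinite _
  have hk : orderOf x = 2 ^ 1 := by rw [pow_one]; exact hx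
  obtain ⟨t, -, ht1, -, -, -, -, hlt⟩ := two_data hM hk hB hb hq
  have hh0 : ∀ i : B, blockHeight 2 B ((i : IrrCharacter G) : G → ℂ) = 0 := by
    intro i
    by_contra hne
    have h1 := Nat.one_le_iff_ne_zero.mpr hne
    obtain ⟨h2, h3⟩ := ht1 i h1
    have h4 := hlt i h1
    rw [hq2] at h4
    have h5 : 2 ^ 2 ∣ t i := (pow_dvd_pow 2 (by omega)).trans h2
    have h6 := Nat.le_of_dvd h3 h5
    omega
  obtain ⟨m, hmd, hZ, hconj, hmul, htr, hY, -⟩ := exists_matrix_def hM hk hB hb
  choose n hn using fun i j => exists_int_of_mem_Zr_two (hZ i j)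
  have hodd : ∀ i j, Odd (n i j) := by
    intro i j
    have h := hY i j (hh0 i) (hh0 j)
    rw [hn i j, intCast_memLocalIdeal_iff hM] at h
    rw [← Int.not_even_iff_odd, even_iff_two_dvd]
    exact_mod_cast h
  have hsym : ∀ i j, n j i = n i j := by
    intro i j
    have h3 := hconj i j
    rw [hn i j, hn j i] at h3
    simp only [map_intCast] at h3
    exact_mod_cast h3
  have hsq : ∀ i, ∑ j, n i j * n i j = 4 * n i i := by
    intro i
    have h1 := hmul i
    rw [hq2] at h1
    have h3 : ((∑ j, n i j * n j i : ℤ) : ℂ) = ((4 * n i i : ℤ) : ℂ) := by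
      push_cast
      simp only [hn] at h1
      rw [h1]
      push_cast
      ring
    have h4 : ∑ j, n i j * n j i = 4 * n i i := by exact_mod_cast h3
    rw [← h4]
    refine Fintype.sum_congr _ _ fun j => ?_
    rw [hsym i j]
  have htr' : ∑ i, n i i = 4 := by
    rw [hq2, hr] at htr
    have h3 : ((∑ i, n i i : ℤ) : ℂ) = ((4 : ℤ) : ℂ) := by
      push_cast
      simp only [hn] at htr
      rw [htr]
      norm_num
    exact_mod_cast h3
  have hcardB : Fintype.card B = 4 := by rw [← Nat.card_eq_fintype_card, hB4]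
  have hge : ∀ i, 1 ≤ n i i := by
    intro i
    have h1 : 0 ≤ ∑ j, n i j * n i j := Finset.sum_nonneg fun j _ => mul_self_nonneg _
    rw [hsq i] at h1
    have h2 : 0 ≤ n i i := by linarith
    obtain ⟨a, ha⟩ := hodd i i
    omega
  have hdiag : ∀ i, n i i = 1 := by
    by_contra hcon
    push Not at hcon
    obtain ⟨i, hi⟩ := hcon
    have h1 : ∑ j, (n j j - 1) = 0 := by
      rw [Finset.sum_sub_distrib, htr']
      simp [hcardB]
    have h2 := (Finset.sum_eq_zero_iff_of_nonneg (fun j _ => by linarith [hge j])).mp h1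
    have := h2 i (Finset.mem_univ i)
    apply hi
    linarith
  have hoff : ∀ i j, n i j * n i j = 1 := by
    intro i j
    have h1 : ∑ l, (n i l * n i l - 1) = 0 := by
      rw [Finset.sum_sub_distrib, hsq i, hdiag i]
      simp [hcardB]
    have hpos : ∀ l, 0 ≤ n i l * n i l - 1 := by
      intro l
      obtain ⟨a, ha⟩ := hodd i l
      have : 0 ≤ a * (a + 1) := by
        rcases le_or_gt 0 a with h | h
        · positivity
        · have h2 : a + 1 ≤ 0 := by omega
          nlinarith
      rw [ha]
      nlinarith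
    have h2 := (Finset.sum_eq_zero_iff_of_nonneg (fun l _ => hpos l)).mp h1
    have := h2 j (Finset.mem_univ j)
    linarith
  have hdouble : ∀ i j, n i j = 1 ∨ n i j = -1 := fun i j => Int.eq_one_or_neg_one_of_mul_eq_one' (hoff i j) |>.elim
    (fun h => Or.inl h.1) (fun h => Or.inr h.1)
  set τ' : B := ⟨τ, hτ⟩ with hτ'
  -- the inner products
  have hin : ∀ i j : B, (4 : ℂ) * classInner (PP 2 b (vt x (i : IrrCharacter G))) (PP 2 b (vt x (j : IrrCharacter G))) = n i j := by
    intro i j
    rw [← hn i j, hmd i j, mm, hq2]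
    norm_num
  have hmain : ∀ i : B, PP 2 b (vt x (i : IrrCharacter G)) =
      fun y => (n i τ' : ℂ) * PP 2 b (vt x τ) y := by
    intro i
    set f := PP 2 b (vt x (i : IrrCharacter G)) with hf
    set g := PP 2 b (vt x τ) with hg
    have h1 : classInner (fun y => f y - (n i τ' : ℂ) * g y) (fun y => f y - (n i τ' : ℂ) * g y) = 0 := by
      rw [classInner_sub_mul_self]
      have e1 := hin i i
      have e2 := hin τ' i
      have e3 := hin i τ'
      have e4 := hin τ' τ'
      rw [hdiag i] at e1
      rw [hsym i τ'] at e2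
      rw [hdiag τ'] at e4
      have hsq' : ((n i τ' : ℂ)) * (n i τ') = 1 := by exact_mod_cast hoff i τ'
      change 4 * classInner f f = _ at e1
      change 4 * classInner g f = _ at e2
      change 4 * classInner f g = _ at e3
      change 4 * classInner g g = _ at e4
      have h4 : (4 : ℂ) ≠ 0 := by norm_num
      apply mul_left_cancel₀ h4
      rw [mul_zero]
      push_cast at e1 e4
      linear_combination e1 - (n i τ' : ℂ) * e2 - (n i τ' : ℂ) * e3 + (n i τ' : ℂ) * (n i τ') * e4 - hsq'
    have h2 := eq_zero_of_classInner_self h1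
    funext y
    have := congrFun h2 y
    simp only [Pi.zero_apply] at this
    exact sub_eq_zero.mp this
  refine ⟨fun χ => if h : χ ∈ B then n ⟨χ, h⟩ τ' else 1, ?_, ?_, ?_, ?_⟩
  · intro χ hχ
    simp only [dif_pos hχ]
    exact hdouble _ _
  · simp only [dif_pos hτ]
    exact hdiag τ'
  · intro χ hχ
    simp only [dif_pos hχ]
    exact hmain ⟨χ, hχ⟩
  · intro h0
    have e4 := hin τ' τ'
    rw [hdiag τ'] at e4
    change 4 * classInner (PP 2 b (vt x τ)) (PP 2 b (vt x τ)) = _ at e4
    rw [h0] at e4
    simp [classInner_def] at e4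

end Main

end Cfsg.Agent.Lib.KleinBlock.Sign
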