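import Mathlib
import Cfsg.Agent.Lib.KleinBlock.Count
import Cfsg.Agent.Lib.KleinBlock.Sign
import Cfsg.Agent.Lib.KleinBlock.Vanish
import Cfsg.Agent.Lib.BlockCoverN.Tau
import Cfsg.Agent.Lib.Blocks.ExtCrit

/-!
# Blocks of the centralizers of the elements of a Klein four defect group

Transport of the block projections along conjugations, and the blocks below a maximal Brauer pair, in terms of the
centralizers of single elements.
-/

set_option linter.unusedSectionVars false
set_option linter.style.haveILetI false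
set_option autoImplicit false

namespace Cfsg.Agent.Lib.KleinBlock.Lower

open Cfsg MonoidAlgebra
open Cfsg.Agent.Lib.Blocks.Local Cfsg.Agent.Lib.Blocks.Central
open Cfsg.Agent.Lib.Blocks.NormRank
open Cfsg.Agent.Lib.BlockH.Transport Cfsg.Agent.Lib.BlockH.Regular
open Cfsg.Agent.Lib.BlockH.SubpairLE Cfsg.Agent.Lib.BlockH.ConjPair Cfsg.Agent.Lib.BlockH.Subpair
open Cfsg.Agent.Lib.BlockH.MaxPair Cfsg.Agent.Lib.BlockH.Defects
open Cfsg.Agent.Lib.BlockH.Sylow Cfsg.Agent.Lib.BlockH.Descent Cfsg.Agent.Lib.BlockH.InducedPairs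
open Cfsg.Agent.Lib.Contrib.Proj Cfsg.Agent.Lib.Contrib.Sec
open Cfsg.Agent.Lib.KleinBlock.Fusion Cfsg.Agent.Lib.KleinBlock.Count
open scoped ComplexConjugate

universe u

section Transport

variable {K K' : Type u} [Group K] [Group K'] [Fintype K] [Fintype K'] [Fintype (IrrCharacter K)]
  [Fintype (IrrCharacter K')] {p : ℕ}

/-- **The block projection under an isomorphism.** -/
theorem PP_blockMap (σ : K ≃* K') (b : Set (IrrCharacter K)) (h : K' → ℂ) (y : K) :
    PP p (blockMap σ b) h (σ y) = PP p b (h ∘ σ) y := by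
  classical
  rw [PP_apply, PP_apply]
  refine ((irrEquiv σ).sum_comp _).symm.trans ?_
  refine Fintype.sum_congr _ _ fun ξ => ?_
  have e1 : (irrEquiv σ ξ ∈ blockMap σ b) ↔ ξ ∈ b := by
    rw [irrEquiv_apply, mem_blockMap_iff]
    have : irrMap σ.symm (irrMap σ ξ) = ξ := (irrEquiv σ).left_inv ξ
    rw [this]
  have e2 : classInner h ((irrEquiv σ ξ : IrrCharacter K') : K' → ℂ) = classInner (h ∘ σ) (ξ : K → ℂ) := by
    have h1 := Cfsg.Agent.Lib.Char.Conj.classInner_comp_mulEquiv σ h ((irrEquiv σ ξ : IrrCharacter K') : K' → ℂ)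
    rw [← h1]
    congr 1
    funext c
    simp
  have e3 : pRegularPart p ((irrEquiv σ ξ : IrrCharacter K') : K' → ℂ) (σ y) =
      pRegularPart p (ξ : K → ℂ) y := by
    rw [pRegularPart_apply, pRegularPart_apply]
    have : IsPRegular p (σ y) ↔ IsPRegular p y := by
      rw [IsPRegular, IsPRegular, MulEquiv.orderOf_eq]
    by_cases hy : IsPRegular p y
    · rw [if_pos hy, if_pos (this.mpr hy)]
      simp
    · rw [if_neg hy, if_neg (fun h' => hy (this.mp h'))]
  by_cases hξ : ξ ∈ b
  · rw [if_pos (e1.mpr hξ), if_pos hξ, e2, e3]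
  · rw [if_neg (fun h' => hξ (e1.mp h')), if_neg hξ]

end Transport

section Conj

variable {G : Type u} [Group G] [Fintype G]

/-- The two descriptions of the centralizer. -/
noncomputable def sg (x : G) : Cn x ≃* CZ x := MulEquiv.subgroupCongr (centralizer_singleton_eq x)

@[simp] theorem coe_sg (x : G) (c : Cn x) : ((sg x c : CZ x) : G) = c := rfl

@[simp] theorem coe_sg_symm (x : G) (c : CZ x) : (((sg x).symm c : Cn x) : G) = c := rfl

variable {g x x' : G}

/-- The conjugation between the centralizers. -/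
noncomputable def kap (h : g * x * g⁻¹ = x') : Cn x ≃* Cn x' :=
  (sg x).trans ((conjEquivOf g (conj_zpowers h)).trans (sg x').symm)

@[simp] theorem coe_kap (h : g * x * g⁻¹ = x') (c : Cn x) : ((kap h c : Cn x') : G) = g * c * g⁻¹ := rfl

theorem blockMap_sg_kap (h : g * x * g⁻¹ = x') (b : Set (IrrCharacter (Cn x))) :
    blockMap (sg x') (blockMap (kap h) b) = blockMap (conjEquivOf g (conj_zpowers h)) (blockMap (sg x) b) := by
  rw [blockMap_blockMap, blockMap_blockMap]
  congr 1

theorem kap_symm_eq {g' : G} (h : g * x * g⁻¹ = x') (h' : g' * x' * g'⁻¹ = x) (hg : g' = g⁻¹) :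
    (kap h).symm = kap h' := by
  subst hg
  ext c
  simp [kap]

theorem vt_kap [Fintype (IrrCharacter G)] (χ : IrrCharacter G) (h : g * x * g⁻¹ = x') (c : Cn x) : vt x' χ (kap h c) = vt x χ c := by
  have e : x' * ((kap h c : Cn x') : G) = g * (x * (c : G)) * g⁻¹ := by
    rw [coe_kap, ← h]
    group
  rw [vt, e, Cfsg.Agent.Lib.Char.Basic.isClassFunction_of_isIrrCharacter χ.2]
  rfl

variable [Fintype (IrrCharacter G)] [Fintype (Cn x)] [Fintype (Cn x')] [Fintype (IrrCharacter (Cn x))]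
  [Fintype (IrrCharacter (Cn x'))]

/-- **The block projection of a shifted character under a conjugation.** -/
theorem PP_kap {p : ℕ} (χ : IrrCharacter G) (h : g * x * g⁻¹ = x') (b : Set (IrrCharacter (Cn x))) (y : Cn x) :
    PP p (blockMap (kap h) b) (vt x' χ) (kap h y) = PP p b (vt x χ) y := by
  rw [PP_blockMap]
  congr 1
  funext c
  exact vt_kap χ h c

end Conj

section Lower

variable {G : Type u} [Group G] [Fintype G] {M : Ideal AlgInt} [Fact (Nat.Prime 2)]
  {B : Set (IrrCharacter G)} {P : Subgroup G}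
  {c₀ : Set (IrrCharacter (Subgroup.centralizer (P : Set G)))}

/-- The block of `C_G(x)` below the pair `(P, c₀)`. -/
def IsLower (M : Ideal AlgInt) (P : Subgroup G) (c₀ : Set (IrrCharacter (Subgroup.centralizer (P : Set G))))
    (x : G) (b : Set (IrrCharacter (Cn x))) : Prop :=
  IsPBlock M b ∧ SubpairLE 2 M (Subgroup.zpowers x) (blockMap (sg x) b) P c₀

variable {x x' : G} {b b₁ b₂ : Set (IrrCharacter (Cn x))}

theorem exists_isLower (hM : IsPModular 2 M) (hPe : IsBrauerPair 2 M P c₀) (hx : x ∈ P) :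
    ∃ b, IsLower M P c₀ x b := by
  obtain ⟨F, ⟨hF, hle⟩, -⟩ := existsUnique_subpairLE hM hPe (Subgroup.zpowers_le.mpr hx)
  refine ⟨blockMap (sg x).symm F, isPBlock_blockMap _ hF, ?_⟩
  rwa [blockMap_blockMap_symm]

theorem isLower_unique (hM : IsPModular 2 M) (hPe : IsBrauerPair 2 M P c₀) (hx : x ∈ P)
    (h₁ : IsLower M P c₀ x b₁) (h₂ : IsLower M P c₀ x b₂) : b₁ = b₂ := by
  have hun := (existsUnique_subpairLE hM hPe (Subgroup.zpowers_le.mpr hx)).unique
    ⟨isPBlock_blockMap _ h₁.1, h₁.2⟩ ⟨isPBlock_blockMap _ h₂.1, h₂.2⟩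
  have h3 := congrArg (blockMap (sg x).symm) hun
  rwa [blockMap_symm_blockMap, blockMap_symm_blockMap] at h3

/-- Induction along the identification of the centralizers. -/
theorem isInducedBlock_sg {b : Set (IrrCharacter (Cn x))} :
    IsInducedBlock M (Cn x) b B ↔ IsInducedBlock M (CZ x) (blockMap (sg x) b) B := by
  constructor
  · intro h
    have h1 := Cfsg.Agent.Lib.BlockCoverN.Tau.isInducedBlock_map (MulEquiv.refl G) (sg x) (fun _ => rfl) h
    have e : blockMap (MulEquiv.refl G) B = B := blockMap_refl B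
    rwa [e] at h1
  · intro h
    have h1 := Cfsg.Agent.Lib.BlockCoverN.Tau.isInducedBlock_map (MulEquiv.refl G) (sg x).symm (fun _ => rfl) h
    have e : blockMap (MulEquiv.refl G) B = B := blockMap_refl B
    rwa [e, blockMap_symm_blockMap] at h1

theorem IsLower.isInducedBlock (hM : IsPModular 2 M) (hPe : IsBrauerPairOf 2 M B P c₀)
    (h : IsLower M P c₀ x b) : IsInducedBlock M (Cn x) b B := by
  rw [isInducedBlock_sg]
  exact isInducedBlock_of_isBrauerPairOf hM ((isBrauerPairOf_iff_of_subpairLE hM h.2 hPe.2.1).mp hPe)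

/-- The defect of the block below the pair. -/
theorem IsLower.blockDefect_eq (hM : IsPModular 2 M) (hmax : IsMaximalBrauerPair 2 M B P c₀)
    (hab : ∀ a ∈ P, ∀ b ∈ P, a * b = b * a) (hcard : Nat.card P = 4) (hx : x ∈ P)
    (h : IsLower M P c₀ x b) : blockDefect 2 b = 2 := by
  classical
  haveI := isPrime_of_pModular hM
  have hPp := hmax.1.1.1
  have hPC : P ≤ CZ x := by
    intro a ha
    rw [Subgroup.mem_centralizer_iff]
    intro q hq
    exact hab q (Subgroup.zpowers_le.mpr hx hq) a ha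
  have hnor := isNormalSubpair_of_subpairLE hM ⟨hPp.to_le (Subgroup.zpowers_le.mpr hx), isPBlock_blockMap _ h.1⟩
    h.2 (hPC.trans (centralizer_le_normalizer'' _))
  have hX : (P.subgroupOf (CZ x)).map (CZ x).subtype = P := Subgroup.map_subgroupOf_eq_of_le hPC
  have hC : Subgroup.centralizer (P : Set G) ≤ CZ x := Subgroup.centralizer_le (Subgroup.zpowers_le.mpr hx)
  have hm := isMaximal_desc hM hmax hab (Subgroup.zpowers_le.mpr hx) hnor hPC hX hC
  have hD := isDefectGroup_of_isMaximal hM hm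
  have h1 := Cfsg.Agent.Lib.Blocks.Inducing.card_eq_pow_blockDefect hM (isPBlock_blockMap _ h.1) hD
  have h2 : Nat.card (P.subgroupOf (CZ x)) = 4 := by
    rw [← hcard]
    exact Nat.card_congr (Subgroup.subgroupOfEquivOfLe hPC).toEquiv
  rw [h2, Cfsg.Agent.Lib.Blocks.ExtCrit.blockDefect_blockMap] at h1
  have h4 : (2 : ℕ) ^ 2 = 2 ^ blockDefect 2 b := by rw [← h1]; norm_num
  exact (Nat.pow_right_injective (le_refl 2) h4).symm

/-- Every block of a centralizer inducing `B` comes from a block below the pair. -/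
theorem exists_isLower_of_block (hM : IsPModular 2 M) (hmax : IsMaximalBrauerPair 2 M B P c₀)
    (hx : ∃ k : ℕ, orderOf x = 2 ^ k) (hb : IsInducedBlock M (Cn x) b B) :
    ∃ (g x₁ : G) (h : g * x * g⁻¹ = x₁), x₁ ∈ P ∧ IsLower M P c₀ x₁ (blockMap (kap h) b) := by
  classical
  haveI := isPrime_of_pModular hM
  have hpair := Cfsg.Agent.Lib.Contrib.Section.isBrauerPairOf_of_induced hM
    (Cfsg.Agent.Lib.Contrib.Section.isPGroup_zpowers' hx) (isInducedBlock_sg.mp hb)
  obtain ⟨g, hgP, g₁, hg₁, hle⟩ := exists_rel_of_block hM hmax hpair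
  refine ⟨g₁, g * x * g⁻¹, hg₁, hgP, isPBlock_blockMap _ hb.1, ?_⟩
  rwa [blockMap_sg_kap]

/-- The stabilizer acts on the blocks below the pair. -/
theorem IsLower.conj (hM : IsPModular 2 M) (hPe : IsBrauerPair 2 M P c₀) {t : G} (ht : t ∈ stabSub P c₀) (h : t * x * t⁻¹ = x')
    (hl : IsLower M P c₀ x b) : IsLower M P c₀ x' (blockMap (kap h) b) := by
  classical
  haveI := isPrime_of_pModular hM
  refine ⟨isPBlock_blockMap _ hl.1, ?_⟩
  have hPt : P.map (MulAut.conj t).toMonoidHom = P := map_conj_eq_of_mem_normalizer ht.1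
  have h1 := subpairLE_conj (conj_zpowers h) hPt hl.2
  rw [blockMap_eq_of_stabilizes hPt hPe.2 ht.2] at h1
  rwa [blockMap_sg_kap]

/-- Conjugate blocks below the pair are conjugate under the stabilizer. -/
theorem exists_stab_of_isLower (hM : IsPModular 2 M) (hmax : IsMaximalBrauerPair 2 M B P c₀)
    (hab : ∀ a ∈ P, ∀ b ∈ P, a * b = b * a) (hx : x ∈ P) (hx' : x' ∈ P) {g : G} (h : g * x * g⁻¹ = x')
    {b' : Set (IrrCharacter (Cn x'))} (hl : IsLower M P c₀ x b) (hl' : IsLower M P c₀ x' b')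
    (hk : blockMap (kap h) b = b') : ∃ t ∈ stabSub P c₀, t * x * t⁻¹ = x' := by
  classical
  haveI := isPrime_of_pModular hM
  have hwf : blockMap (conjEquivOf g (conj_zpowers h)) (blockMap (sg x) b) = blockMap (sg x') b' := by
    rw [← hk, blockMap_sg_kap]
  obtain ⟨t, ht, c, hc, rfl⟩ := exists_fusion hM hmax hab (Subgroup.zpowers_le.mpr hx)
    (Subgroup.zpowers_le.mpr hx') (isPBlock_blockMap _ hl.1) (isPBlock_blockMap _ hl'.1) hl.2 hl'.2
    (conj_zpowers h) hwf
  refine ⟨_, ht, ?_⟩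
  have hcx : c * x' = x' * c :=
    (Subgroup.mem_centralizer_iff.mp hc x' (Subgroup.mem_zpowers x')).symm
  calc c * g * x * (c * g)⁻¹
      = c * (g * x * g⁻¹) * c⁻¹ := by group
    _ = c * x' * c⁻¹ := by rw [h]
    _ = x' := by rw [hcx]; group

end Lower

end Cfsg.Agent.Lib.KleinBlock.Lower
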