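import Mathlib
import Cfsg.Agent.Lib.KleinBlock.Vanish
import Cfsg.Agent.Lib.BlockP.Stable

/-!
# A signed bijection compatible with sign vectors is a perfect isometry
-/

set_option linter.unusedSectionVars false
set_option linter.style.haveILetI false
set_option autoImplicit false

namespace Cfsg.Agent.Lib.KleinBlock.Perfect

open Cfsg
open Cfsg.Agent.Lib.Blocks.Local
open Cfsg.Agent.Lib.KleinBlock.Vanish
open Cfsg.Agent.Lib.BlockP.Stable

universe u

section Exp

variable {K : Type u} [Group K] {W : Type u}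

/-- The expansion of a column of the character table on the sign vectors. -/
def SingExp (M : Ideal AlgInt) (A : Set (IrrCharacter K)) (dA : W → A → ℤ) (g : K) : Prop :=
  ∃ (ι : Type u) (_ : Fintype ι) (w : ι → W) (F : ι → ℂ), (∀ i, MemLocalRing M (F i)) ∧
    (∀ i, MemLocalRing M (4 * F i / (Nat.card (Subgroup.centralizer ({g} : Set K)) : ℂ))) ∧
    ∀ χ : A, ((χ : IrrCharacter K) : K → ℂ) g = ∑ i, (dA (w i) χ : ℂ) * F i

end Exp

section Main

variable {G H : Type u} [Group G] [Group H] [Fintype G] [Fintype H] {M : Ideal AlgInt}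
  {B : Set (IrrCharacter G)} {c : Set (IrrCharacter H)} [Fintype B] [Fintype c] {W : Type u}

/-- The kernel. -/
noncomputable def kk (I : c ≃ B) (ε : c → ℤ) (g : G) (y : H) : ℂ :=
  ∑ η : c, (ε η : ℂ) * ((I η : IrrCharacter G) : G → ℂ) g * ((η : IrrCharacter H) : H → ℂ) y

variable {I : c ≃ B} {ε : c → ℤ} {dB : W → B → ℤ} {dc : W → c → ℤ}

theorem kk_sing_reg (hc : ∀ u η, ε η * dB u (I η) = dc u η)
    (hregC : ∀ u (y : H), ¬ 2 ∣ orderOf y → ∑ η : c, (dc u η : ℂ) * ((η : IrrCharacter H) : H → ℂ) y = 0)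
    {g : G} (hg : SingExp M B dB g) {y : H} (hy : ¬ 2 ∣ orderOf y) : kk I ε g y = 0 := by
  obtain ⟨ι, _, w, F, -, -, hF⟩ := hg
  have e : kk I ε g y = ∑ i, F i * ∑ η : c, (dc (w i) η : ℂ) * ((η : IrrCharacter H) : H → ℂ) y := by
    rw [kk]
    simp only [hF, Finset.mul_sum, Finset.sum_mul]
    rw [Finset.sum_comm]
    refine Fintype.sum_congr _ _ fun i => Fintype.sum_congr _ _ fun η => ?_
    rw [← hc (w i) η]
    push_cast
    ring
  rw [e]
  exact Finset.sum_eq_zero fun i _ => by rw [hregC _ _ hy, mul_zero]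

theorem kk_reg_sing (hε : ∀ η, ε η = 1 ∨ ε η = -1) (hc : ∀ u η, ε η * dB u (I η) = dc u η)
    (hregB : ∀ u (g : G), ¬ 2 ∣ orderOf g → ∑ χ : B, (dB u χ : ℂ) * ((χ : IrrCharacter G) : G → ℂ) g = 0)
    {y : H} (hy : SingExp M c dc y) {g : G} (hg : ¬ 2 ∣ orderOf g) : kk I ε g y = 0 := by
  obtain ⟨ι, _, w, F, -, -, hF⟩ := hy
  have e : kk I ε g y = ∑ i, F i * ∑ χ : B, (dB (w i) χ : ℂ) * ((χ : IrrCharacter G) : G → ℂ) g := by
    rw [kk]
    simp only [hF, Finset.mul_sum]
    rw [Finset.sum_comm]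
    refine Fintype.sum_congr _ _ fun i => ?_
    rw [← I.sum_comp]
    refine Fintype.sum_congr _ _ fun η => ?_
    rw [← hc (w i) η]
    have h1 : (ε η : ℂ) * (ε η : ℂ) = 1 := by
      rcases hε η with h | h <;> rw [h] <;> norm_num
    push_cast
    linear_combination ((dB (w i) (I η) : ℂ) * ((I η : IrrCharacter G) : G → ℂ) g * F i) * h1
  rw [e]
  exact Finset.sum_eq_zero fun i _ => by rw [hregB _ _ hg, mul_zero]

variable [M.IsPrime]

theorem kk_sing_sing (hc : ∀ u η, ε η * dB u (I η) = dc u η)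
    (hprod : ∀ u v, ∑ η, dc u η * dc v η = 0 ∨ ∑ η, dc u η * dc v η = 4)
    {g : G} (hg : SingExp M B dB g) {y : H} (hy : SingExp M c dc y) :
    MemLocalRing M (kk I ε g y / (Nat.card (Subgroup.centralizer ({g} : Set G)) : ℂ)) ∧
    MemLocalRing M (kk I ε g y / (Nat.card (Subgroup.centralizer ({y} : Set H)) : ℂ)) := by
  obtain ⟨ι, _, w, F, hFl, hFd, hF⟩ := hg
  obtain ⟨ι', _, w', F', hFl', hFd', hF'⟩ := hy
  have e : kk I ε g y = ∑ i, ∑ j, F i * F' j * ((∑ η, dc (w i) η * dc (w' j) η : ℤ) : ℂ) := by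
    have h1 : ∀ η : c, (ε η : ℂ) * ((I η : IrrCharacter G) : G → ℂ) g * ((η : IrrCharacter H) : H → ℂ) y =
        ∑ i, ∑ j, F i * F' j * (((dc (w i) η * dc (w' j) η : ℤ)) : ℂ) := by
      intro η
      rw [hF, hF', mul_assoc, Finset.sum_mul_sum, Finset.mul_sum]
      refine Fintype.sum_congr _ _ fun i => ?_
      rw [Finset.mul_sum]
      refine Fintype.sum_congr _ _ fun j => ?_
      rw [← hc (w i) η]
      push_cast
      ring
    rw [kk, Finset.sum_congr rfl fun η _ => h1 η, Finset.sum_comm]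
    refine Fintype.sum_congr _ _ fun i => ?_
    rw [Finset.sum_comm]
    refine Fintype.sum_congr _ _ fun j => ?_
    rw [Int.cast_sum, Finset.mul_sum]
  constructor
  · rw [e, Finset.sum_div]
    refine memLocalRing_sum _ _ fun i _ => ?_
    rw [Finset.sum_div]
    refine memLocalRing_sum _ _ fun j _ => ?_
    rcases hprod (w i) (w' j) with h | h
    · rw [h]
      simpa using memLocalRing_zero
    · rw [h]
      have e2 : F i * F' j * ((4 : ℤ) : ℂ) / (Nat.card (Subgroup.centralizer ({g} : Set G)) : ℂ) =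
          (4 * F i / (Nat.card (Subgroup.centralizer ({g} : Set G)) : ℂ)) * F' j := by
        push_cast
        ring
      rw [e2]
      exact memLocalRing_mul (hFd i) (hFl' j)
  · rw [e, Finset.sum_div]
    refine memLocalRing_sum _ _ fun i _ => ?_
    rw [Finset.sum_div]
    refine memLocalRing_sum _ _ fun j _ => ?_
    rcases hprod (w i) (w' j) with h | h
    · rw [h]
      simpa using memLocalRing_zero
    · rw [h]
      have e2 : F i * F' j * ((4 : ℤ) : ℂ) / (Nat.card (Subgroup.centralizer ({y} : Set H)) : ℂ) =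
          F i * (4 * F' j / (Nat.card (Subgroup.centralizer ({y} : Set H)) : ℂ)) := by
        push_cast
        ring
      rw [e2]
      exact memLocalRing_mul (hFl i) (hFd' j)

theorem memLocalRing_sign {e : ℤ} : MemLocalRing M (e : ℂ) :=
  memLocalRing_of_isIntegral (isIntegral_intCast e)

variable [Fintype (IrrCharacter G)] [Fintype (IrrCharacter H)] [Fact (Nat.Prime 2)]

/-- A combination of the members of a set, as a combination of all irreducible characters. -/
theorem sum_subtype_eq_sum {K : Type u} [Group K] [Fintype (IrrCharacter K)] {A : Set (IrrCharacter K)} [Fintype A]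
    (f : A → ℂ) (v : IrrCharacter K → ℂ) :
    ∑ a : A, f a * v a = ∑ χ : IrrCharacter K, (by classical exact if h : χ ∈ A then f ⟨χ, h⟩ else 0) * v χ := by
  classical
  symm
  rw [← Finset.sum_filter_of_ne (p := (· ∈ A))]
  · rw [Finset.sum_subtype (p := (· ∈ A)) _ (fun x => by simp)]
    refine Fintype.sum_congr _ _ fun a => ?_
    rw [dif_pos a.2]
  · intro χ _ hne
    by_contra h
    apply hne
    rw [dif_neg h, zero_mul]

/-- Regular elements. -/
theorem kk_reg_reg (hε : ∀ η, ε η = 1 ∨ ε η = -1) (hc : ∀ u η, ε η * dB u (I η) = dc u η)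
    (hregB : ∀ u (g : G), ¬ 2 ∣ orderOf g → ∑ χ : B, (dB u χ : ℂ) * ((χ : IrrCharacter G) : G → ℂ) g = 0)
    (hregC : ∀ u (y : H), ¬ 2 ∣ orderOf y → ∑ η : c, (dc u η : ℂ) * ((η : IrrCharacter H) : H → ℂ) y = 0)
    (hsingB : ∀ g : G, 2 ∣ orderOf g → SingExp M B dB g) (hsingC : ∀ y : H, 2 ∣ orderOf y → SingExp M c dc y)
    (hM : IsPModular 2 M) {g : G} (hg : ¬ 2 ∣ orderOf g) {y : H} (hy : ¬ 2 ∣ orderOf y) :
    MemLocalRing M (kk I ε g y / (Nat.card (Subgroup.centralizer ({g} : Set G)) : ℂ)) ∧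
    MemLocalRing M (kk I ε g y / (Nat.card (Subgroup.centralizer ({y} : Set H)) : ℂ)) := by
  classical
  constructor
  · have h1 := memLocalRing_div_of_vanish (f := fun z => kk I ε z y) hM
      (fun χ => if h : χ ∈ B then (ε (I.symm ⟨χ, h⟩) : ℂ) * ((I.symm ⟨χ, h⟩ : IrrCharacter H) : H → ℂ) y else 0)
      ?_ ?_ (fun z hz => kk_sing_reg hc hregC (hsingB z hz) hy) hg
    · exact h1
    · intro χ
      split_ifs
      · exact memLocalRing_mul memLocalRing_sign (memLocalRing_of_isIntegral (isIntegral_irr _ _))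
      · exact memLocalRing_zero
    · intro z
      have h2 := sum_subtype_eq_sum (A := B) (fun χ => (ε (I.symm χ) : ℂ) * ((I.symm χ : IrrCharacter H) : H → ℂ) y)
        (fun χ => (χ : G → ℂ) z)
      refine Eq.trans ?_ h2
      rw [kk, ← I.sum_comp (fun a : B => (ε (I.symm a) : ℂ) * ((I.symm a : IrrCharacter H) : H → ℂ) y *
        ((a : IrrCharacter G) : G → ℂ) z)]
      refine Fintype.sum_congr _ _ fun η => ?_
      simp only [Equiv.symm_apply_apply]
      ring
  · have h1 := memLocalRing_div_of_vanish (f := fun z => kk I ε g z) hM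
      (fun η => if h : η ∈ c then (ε ⟨η, h⟩ : ℂ) * ((I ⟨η, h⟩ : IrrCharacter G) : G → ℂ) g else 0)
      ?_ ?_ (fun z hz => kk_reg_sing hε hc hregB (hsingC z hz) hg) hy
    · exact h1
    · intro η
      split_ifs
      · exact memLocalRing_mul memLocalRing_sign (memLocalRing_of_isIntegral (isIntegral_irr _ _))
      · exact memLocalRing_zero
    · intro z
      have h2 := sum_subtype_eq_sum (A := c) (fun η => (ε η : ℂ) * ((I η : IrrCharacter G) : G → ℂ) g)
        (fun η => (η : H → ℂ) z)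
      exact h2

/-- **A signed bijection compatible with sign vectors is a perfect isometry.** -/
theorem exists_isPerfectIsometry (hM : IsPModular 2 M) (τ₀ : IrrCharacter G)
    (hε : ∀ η, ε η = 1 ∨ ε η = -1) (hc : ∀ u η, ε η * dB u (I η) = dc u η)
    (hregB : ∀ u (g : G), ¬ 2 ∣ orderOf g → ∑ χ : B, (dB u χ : ℂ) * ((χ : IrrCharacter G) : G → ℂ) g = 0)
    (hregC : ∀ u (y : H), ¬ 2 ∣ orderOf y → ∑ η : c, (dc u η : ℂ) * ((η : IrrCharacter H) : H → ℂ) y = 0)
    (hsingB : ∀ g : G, 2 ∣ orderOf g → SingExp M B dB g) (hsingC : ∀ y : H, 2 ∣ orderOf y → SingExp M c dc y)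
    (hprod : ∀ u v, ∑ η, dc u η * dc v η = 0 ∨ ∑ η, dc u η * dc v η = 4) :
    ∃ (I' : IrrCharacter H → IrrCharacter G) (ε' : IrrCharacter H → ℤ), IsPerfectIsometry 2 M c B I' ε' := by
  classical
  refine ⟨fun η => if h : η ∈ c then (I ⟨η, h⟩ : IrrCharacter G) else τ₀,
    fun η => if h : η ∈ c then ε ⟨η, h⟩ else 1, ⟨?_, ?_, ?_⟩, ?_, ?_⟩
  · intro η hη
    simp only [dif_pos hη]
    exact (I ⟨η, hη⟩).2
  · intro η hη η' hη' he
    simp only [dif_pos hη, dif_pos hη'] at he
    have h1 := I.injective (Subtype.ext he)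
    exact congrArg Subtype.val h1
  · intro χ hχ
    refine ⟨I.symm ⟨χ, hχ⟩, (I.symm ⟨χ, hχ⟩).2, ?_⟩
    simp only [dif_pos (I.symm ⟨χ, hχ⟩).2]
    simp
  · intro η hη
    simp only [dif_pos hη]
    exact hε _
  · have hker : signedBijectionKernel c (fun η => if h : η ∈ c then (I ⟨η, h⟩ : IrrCharacter G) else τ₀)
        (fun η => if h : η ∈ c then ε ⟨η, h⟩ else 1) = kk I ε := by
      funext x y
      rw [signedBijectionKernel, ← finsum_subtype_eq_finsum_cond, finsum_eq_sum_of_fintype, kk]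
      refine Fintype.sum_congr _ _ fun η => ?_
      simp only [dif_pos η.2]
    rw [hker]
    intro x y
    by_cases hx : 2 ∣ orderOf x
    · by_cases hy : 2 ∣ orderOf y
      · obtain ⟨h1, h2⟩ := kk_sing_sing hc hprod (hsingB x hx) (hsingC y hy)
        exact ⟨h1, h2, Or.inl (iff_of_false (not_not.mpr hx) (not_not.mpr hy))⟩
      · have h0 := kk_sing_reg hc hregC (I := I) (ε := ε) (hsingB x hx) hy
        rw [h0]
        simpa using (memLocalRing_zero : MemLocalRing M 0)
    · by_cases hy : 2 ∣ orderOf y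
      · have h0 := kk_reg_sing hε hc hregB (I := I) (ε := ε) (hsingC y hy) hx
        rw [h0]
        simpa using (memLocalRing_zero : MemLocalRing M 0)
      · obtain ⟨h1, h2⟩ := kk_reg_reg hε hc hregB hregC hsingB hsingC hM hx hy
        exact ⟨h1, h2, Or.inl (iff_of_true hx hy)⟩

end Main

end Cfsg.Agent.Lib.KleinBlock.Perfect
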