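import Mathlib
import Cfsg.Agent.Lib.KleinBlock.Lower
import Cfsg.Agent.Lib.Blocks.Heights

/-!
# The sign vectors of a block with Klein four defect group

For a maximal Brauer pair `(P, c₀)` of a block `B` with Klein four defect group, to every nontrivial element `u` of `P`
belongs a vector `d u` of signs on `B`, invariant under the stabilizer of the pair, orthogonal to the vectors of the
other orbits, orthogonal to the columns of the character table at the `2`-regular elements, and the columns of the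
character table at the `2`-singular elements are combinations of these vectors.
-/

set_option linter.unusedSectionVars false
set_option linter.style.haveILetI false
set_option autoImplicit false

namespace Cfsg.Agent.Lib.KleinBlock.SignData

open Cfsg MonoidAlgebra
open Cfsg.Agent.Lib.Blocks.Local Cfsg.Agent.Lib.Blocks.Central Cfsg.Agent.Lib.Blocks.Main
open Cfsg.Agent.Lib.Blocks.NormRank Cfsg.Agent.Lib.Blocks.Sections Cfsg.Agent.Lib.Blocks.SectionCount
open Cfsg.Agent.Lib.Blocks.ClosedRank Cfsg.Agent.Lib.Blocks.PPart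
open Cfsg.Agent.Lib.BlockH.Transport Cfsg.Agent.Lib.BlockH.Regular Cfsg.Agent.Lib.BlockH.MaxPair
open Cfsg.Agent.Lib.Contrib.Proj Cfsg.Agent.Lib.Contrib.Sec Cfsg.Agent.Lib.Contrib.Family
open Cfsg.Agent.Lib.Contrib.Section Cfsg.Agent.Lib.Char.Ortho
open Cfsg.Agent.Lib.KleinBlock.Count Cfsg.Agent.Lib.KleinBlock.Lower Cfsg.Agent.Lib.KleinBlock.Vanish
open scoped ComplexConjugate

universe u v

section Bilinear

variable {K K' : Type u} [Group K] [Group K'] [Fintype K] [Fintype K'] [Fintype (IrrCharacter K)]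
  [Fintype (IrrCharacter K')] {p : ℕ} {M : Ideal AlgInt} [Fact p.Prime] {ι : Type v} [Fintype ι]

theorem PP_zero (b : Set (IrrCharacter K)) : PP p b (fun _ => (0 : ℂ)) = 0 := by
  classical
  funext y
  rw [PP_apply]
  refine Finset.sum_eq_zero fun ξ _ => ?_
  split_ifs
  · simp [classInner_def]
  · rfl

theorem PP_const_mul (b : Set (IrrCharacter K)) (a : ℂ) (h : K → ℂ) (y : K) :
    PP p b (fun z => a * h z) y = a * PP p b h y := by
  simpa using PP_linear (p := p) b (fun _ : Unit => a) (fun _ => h) y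

/-- A bilinear relation on the regular elements passes to the block projections. -/
theorem sum_PP_mul_conj_PP (hM : IsPModular p M) {b : Set (IrrCharacter K)} (hb : IsPBlock M b)
    {b' : Set (IrrCharacter K')} (hb' : IsPBlock M b') (ϑ : ι → K → ℂ) (ϑ' : ι → K' → ℂ)
    (hreg : ∀ y y', ¬ p ∣ orderOf y → ¬ p ∣ orderOf y' → ∑ i, ϑ i y * conj (ϑ' i y') = 0) (y : K) (y' : K') :
    ∑ i, PP p b (ϑ i) y * conj (PP p b' (ϑ' i) y') = 0 := by
  classical
  have step1 : ∀ y', ¬ p ∣ orderOf y' → ∀ y, ∑ i, conj (ϑ' i y') * PP p b (ϑ i) y = 0 := by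
    intro y' hy' y
    have h1 : PP p b (fun u => ∑ i, conj (ϑ' i y') * ϑ i u) = PP p b (fun _ => 0) := by
      apply PP_congr hM hb
      intro u hu
      rw [← hreg u y' hu hy']
      refine Fintype.sum_congr _ _ fun i => ?_
      ring
    have h2 := congrFun h1 y
    rw [PP_linear, PP_zero] at h2
    exact h2
  have h1 : PP p b' (fun u => ∑ i, conj (PP p b (ϑ i) y) * ϑ' i u) = PP p b' (fun _ => 0) := by
    apply PP_congr hM hb'
    intro u hu
    have h3 := congrArg conj (step1 u hu y)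
    simp only [map_sum, map_mul, Complex.conj_conj, map_zero] at h3
    rw [← h3]
    exact Fintype.sum_congr _ _ fun i => mul_comm _ _
  have h2 := congrFun h1 y'
  rw [PP_linear, PP_zero] at h2
  have h3 := congrArg conj h2
  simp only [map_sum, map_mul, Complex.conj_conj] at h3
  simpa using h3

/-- The coefficients of proportional families are orthogonal. -/
theorem sum_int_eq_zero_of_mul {α : Type v} [Fintype α] {d₁ d₂ : α → ℤ} {F₁ : K → ℂ} {F₂ : K' → ℂ}
    {f₁ : α → K → ℂ} {f₂ : α → K' → ℂ} (h₁ : ∀ a, f₁ a = fun y => (d₁ a : ℂ) * F₁ y)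
    (h₂ : ∀ a, f₂ a = fun y => (d₂ a : ℂ) * F₂ y) (hF₁ : F₁ ≠ 0) (hF₂ : F₂ ≠ 0)
    (h : ∀ y y', ∑ a, f₁ a y * conj (f₂ a y') = 0) : ∑ a, d₁ a * d₂ a = 0 := by
  obtain ⟨y, hy⟩ := Function.ne_iff.mp hF₁
  obtain ⟨y', hy'⟩ := Function.ne_iff.mp hF₂
  have h3 := h y y'
  simp only [h₁, h₂, map_mul, map_intCast] at h3
  have h4 : ((∑ a, d₁ a * d₂ a : ℤ) : ℂ) * (F₁ y * conj (F₂ y')) = 0 := by
    rw [← h3]
    push_cast
    rw [Finset.sum_mul]
    refine Fintype.sum_congr _ _ fun a => ?_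
    ring
  have hne : F₁ y * conj (F₂ y') ≠ 0 := mul_ne_zero hy (by
    rw [Ne, map_eq_zero]
    exact hy')
  have h5 := (mul_eq_zero.mp h4).resolve_right hne
  exact_mod_cast h5

end Bilinear

section Main

variable {G : Type u} [Group G] [Fintype G] [Fintype (IrrCharacter G)] {M : Ideal AlgInt} [Fact (Nat.Prime 2)]
  {B : Set (IrrCharacter G)} {P : Subgroup G} {c₀ : Set (IrrCharacter (Subgroup.centralizer (P : Set G)))}
  [∀ x : G, Fintype (Cn x)] [∀ x : G, Fintype (IrrCharacter (Cn x))]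

/-- The setting. -/
structure KleinSetup (M : Ideal AlgInt) (B : Set (IrrCharacter G)) (P : Subgroup G)
    (c₀ : Set (IrrCharacter (Subgroup.centralizer (P : Set G)))) : Prop where
  hM : IsPModular 2 M
  hB : IsPBlock M B
  hD : IsDefectGroup 2 M B P
  hcard : Nat.card P = 4
  hexp : ∀ a ∈ P, a ^ 2 = 1
  hab : ∀ a ∈ P, ∀ b ∈ P, a * b = b * a
  hmax : IsMaximalBrauerPair 2 M B P c₀

/-- The sign vector attached to an element of `P`. -/
def LowerSign (M : Ideal AlgInt) (B : Set (IrrCharacter G)) (P : Subgroup G)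
    (c₀ : Set (IrrCharacter (Subgroup.centralizer (P : Set G)))) (τ : IrrCharacter G) (x : G)
    (d : IrrCharacter G → ℤ) : Prop :=
  ∃ b : Set (IrrCharacter (Cn x)), IsLower M P c₀ x b ∧ (∀ χ ∈ B, d χ = 1 ∨ d χ = -1) ∧ d τ = 1 ∧
    (∀ χ ∈ B, PP 2 b (vt x χ) = fun y => (d χ : ℂ) * PP 2 b (vt x τ) y) ∧ PP 2 b (vt x τ) ≠ 0

variable {τ : IrrCharacter G} {u v : G} {du dv : IrrCharacter G → ℤ}

theorem KleinSetup.exists_lowerSign (S : KleinSetup M B P c₀) (hτ : τ ∈ B) {x : G} (hx : x ∈ P) (hx1 : x ≠ 1) :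
    ∃ d, LowerSign M B P c₀ τ x d := by
  classical
  haveI := isPrime_of_pModular S.hM
  obtain ⟨b, hl⟩ := exists_isLower S.hM S.hmax.1.1 hx
  have hind := hl.isInducedBlock S.hM S.hmax.1
  have hd := hl.blockDefect_eq S.hM S.hmax S.hab S.hcard hx
  have hxo : orderOf x = 2 := orderOf_eq_prime (S.hexp x hx) hx1
  have hr := Cfsg.Agent.Lib.KleinBlock.Rank.blockRank_eq_one S.hM hxo hl.1 hd.le
  have hdB := Cfsg.Agent.Lib.KleinBlock.Card.blockDefect_eq_two S.hM S.hB S.hD S.hcard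
  have hB4 := Cfsg.Agent.Lib.KleinBlock.Card.card_eq_four S.hM S.hB S.hD S.hcard S.hab S.hexp
  obtain ⟨d, h1, h2, h3, h4⟩ := Cfsg.Agent.Lib.KleinBlock.Sign.exists_sign S.hM hxo S.hB hB4 hind
    (hd.trans hdB.symm) hd hr hτ
  exact ⟨d, b, hl, h1, h2, h3, h4⟩

/-- Invariance under the stabilizer. -/
theorem KleinSetup.lowerSign_conj (S : KleinSetup M B P c₀) (hv : v ∈ P) {t : G} (ht : t ∈ stabSub P c₀)
    (h : t * u * t⁻¹ = v) (hu' : LowerSign M B P c₀ τ u du) (hv' : LowerSign M B P c₀ τ v dv)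
    {χ : IrrCharacter G} (hχ : χ ∈ B) : dv χ = du χ := by
  classical
  haveI := isPrime_of_pModular S.hM
  obtain ⟨bu, hlu, -, h1u, hfu, hFu⟩ := hu'
  obtain ⟨bv, hlv, -, h1v, hfv, -⟩ := hv'
  have hl := hlu.conj S.hM S.hmax.1.1 ht h
  obtain rfl := isLower_unique S.hM S.hmax.1.1 hv hlv hl
  obtain ⟨y, hy⟩ := Function.ne_iff.mp hFu
  have hy' : PP 2 bu (vt u τ) y ≠ 0 := hy
  have e1 := PP_kap (p := 2) τ h bu y
  have e2 := PP_kap (p := 2) χ h bu y
  rw [hfv χ hχ, hfu χ hχ] at e2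
  simp only at e2
  rw [e1] at e2
  have e3 : (dv χ : ℂ) = du χ := mul_right_cancel₀ hy' e2
  exact_mod_cast e3

variable [Fintype B]

/-- The conjugate projection for distinct blocks vanishes. -/
theorem sum_PP_disjoint (hM : IsPModular 2 M) (hB : IsPBlock M B) {x : G} (hx : ∃ k : ℕ, orderOf x = 2 ^ k)
    {b₁ b₂ : Set (IrrCharacter (Cn x))} (hb₁ : IsPBlock M b₁) (hb₂ : IsPBlock M b₂) (hne : b₁ ≠ b₂) (y y' : Cn x) :
    ∑ χ : B, PP 2 b₁ (vt x (χ : IrrCharacter G)) y * conj (PP 2 b₂ (vt x (χ : IrrCharacter G)) y') = 0 := by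
  classical
  haveI := isPrime_of_pModular hM
  set a : IrrCharacter (Cn x) → ℂ := fun ψ => if ψ ∈ indUnion M (Cn x) B then -1 else 0 with ha
  have key := sum_PP_mul_conj_PP (ι := B ⊕ IrrCharacter (Cn x)) (p := 2) hM hb₁ hb₂
    (Sum.elim (fun χ : B => vt x (χ : IrrCharacter G)) (fun ψ z => a ψ * (ψ : Cn x → ℂ) z))
    (Sum.elim (fun χ : B => vt x (χ : IrrCharacter G)) (fun ψ => (ψ : Cn x → ℂ))) ?_ y y'
  · rw [Fintype.sum_sum_type] at key
    simp only [Sum.elim_inl, Sum.elim_inr] at key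
    have h0 : ∑ ψ : IrrCharacter (Cn x), PP 2 b₁ (fun z => a ψ * (ψ : Cn x → ℂ) z) y *
        conj (PP 2 b₂ (ψ : Cn x → ℂ) y') = 0 := by
      refine Finset.sum_eq_zero fun ψ _ => ?_
      rw [PP_const_mul]
      by_cases h1 : ψ ∈ b₁
      · have h2 : ψ ∉ b₂ := fun h2 => hne (Cfsg.Agent.Lib.Blocks.Main.isPBlock_mem_unique hb₁ hb₂ h1 h2)
        rw [PP_irr_of_notMem h2]
        simp
      · rw [PP_irr_of_notMem h1]
        simp
    rwa [h0, add_zero] at key
  · intro z z' hz hz'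
    rw [Fintype.sum_sum_type]
    simp only [Sum.elim_inl, Sum.elim_inr]
    have h1 := Cfsg.Agent.Lib.Blocks.NormSum.section_sum_eq hM hx hB z z' hz hz'
    have h2 := sum_subtype_eq (B := B) (fun ζ : IrrCharacter G => vt x ζ z * conj (vt x ζ z'))
    have h3 : (∑ ζ : IrrCharacter G, if ζ ∈ B then vt x ζ z * conj (vt x ζ z') else 0) =
        ∑ ζ : IrrCharacter G, if ζ ∈ B then (ζ : G → ℂ) (x * (z : G)) * conj ((ζ : G → ℂ) (x * (z' : G))) else 0 := rfl
    rw [h2, h3, h1, ← Finset.sum_add_distrib]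
    refine Finset.sum_eq_zero fun ψ _ => ?_
    simp only [ha]
    split_ifs
    · ring
    · ring

/-- Orthogonality of sign vectors of different orbits. -/
theorem KleinSetup.lowerSign_ortho (S : KleinSetup M B P c₀) (hu : u ∈ P) (hv : v ∈ P) (hu1 : u ≠ 1) (hv1 : v ≠ 1)
    (hn : ¬ ∃ t ∈ stabSub P c₀, t * u * t⁻¹ = v)
    (hu' : LowerSign M B P c₀ τ u du) (hv' : LowerSign M B P c₀ τ v dv) :
    ∑ χ : B, du (χ : IrrCharacter G) * dv (χ : IrrCharacter G) = 0 := by
  classical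
  haveI := isPrime_of_pModular S.hM
  have hM := S.hM
  obtain ⟨bu, hlu, -, -, hfu, hFu⟩ := hu'
  obtain ⟨bv, hlv, -, -, hfv, hFv⟩ := hv'
  have hxo : ∀ a ∈ P, a ≠ 1 → ∃ k : ℕ, orderOf a = 2 ^ k := fun a ha ha1 =>
    ⟨1, by rw [pow_one]; exact orderOf_eq_prime (S.hexp a ha) ha1⟩
  by_cases hc : IsConj u v
  · obtain ⟨g, hg⟩ := isConj_iff.mp hc
    have hg' : g⁻¹ * v * g⁻¹⁻¹ = u := by
      rw [← hg]
      group
    set b₂ := blockMap (kap hg') bv with hb₂
    have hne : bu ≠ b₂ := by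
      intro he
      apply hn
      refine exists_stab_of_isLower hM S.hmax S.hab hu hv hg hlu hlv ?_
      rw [he, hb₂, ← kap_symm_eq hg hg' rfl, blockMap_blockMap_symm]
    refine sum_int_eq_zero_of_mul (K := Cn u) (K' := Cn u) (α := B)
      (f₁ := fun χ => PP 2 bu (vt u (χ : IrrCharacter G)))
      (f₂ := fun χ => PP 2 b₂ (vt u (χ : IrrCharacter G)))
      (F₁ := PP 2 bu (vt u τ)) (F₂ := fun y => PP 2 bv (vt v τ) ((kap hg').symm y))
      (fun χ => hfu χ χ.2) (fun χ => ?_) hFu ?_ ?_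
    · funext y
      have e := PP_kap (p := 2) (χ : IrrCharacter G) hg' bv ((kap hg').symm y)
      rw [MulEquiv.apply_symm_apply] at e
      rw [e, hfv χ χ.2]
    · intro h0
      apply hFv
      funext y
      have := congrFun h0 (kap hg' y)
      simpa using this
    · intro y y'
      exact sum_PP_disjoint hM S.hB (hxo u hu hu1) hlu.1 (isPBlock_blockMap _ hlv.1) hne y y'
  · refine sum_int_eq_zero_of_mul (K := Cn u) (K' := Cn v) (α := B)
      (f₁ := fun χ => PP 2 bu (vt u (χ : IrrCharacter G)))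
      (f₂ := fun χ => PP 2 bv (vt v (χ : IrrCharacter G)))
      (fun χ => hfu χ χ.2) (fun χ => hfv χ χ.2) hFu hFv ?_
    intro y y'
    refine sum_PP_mul_conj_PP (p := 2) hM hlu.1 hlv.1 _ _ ?_ y y'
    intro z z' hz hz'
    have h1 := Cfsg.Agent.Lib.Blocks.Heights.block_orthogonality_section hM
      (isPPart_mul' (hxo u hu hu1) hz) (isPPart_mul' (hxo v hv hv1) hz') hc S.hB
    rw [← finsum_subtype_eq_finsum_cond, finsum_eq_sum_of_fintype] at h1
    rw [← h1]
    refine Fintype.sum_congr _ _ fun χ => ?_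
    rw [Cfsg.Agent.Lib.Char.Ortho.char_inv_eq_conj
      (Cfsg.Agent.Lib.Char.Basic.isCharacter_of_isIrrCharacter (χ : IrrCharacter G).2)]
    rfl

/-- Orthogonality to the columns of the regular elements. -/
theorem KleinSetup.lowerSign_reg (S : KleinSetup M B P c₀) (hu : u ∈ P) (hu1 : u ≠ 1)
    (hu' : LowerSign M B P c₀ τ u du) {g : G} (hg : ¬ 2 ∣ orderOf g) :
    ∑ χ : B, (du (χ : IrrCharacter G) : ℂ) * ((χ : IrrCharacter G) : G → ℂ) g = 0 := by
  classical
  haveI := isPrime_of_pModular S.hM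
  have hM := S.hM
  obtain ⟨b, hl, -, -, hf, hF⟩ := hu'
  have hxo : ∃ k : ℕ, orderOf u = 2 ^ k := ⟨1, by rw [pow_one]; exact orderOf_eq_prime (S.hexp u hu) hu1⟩
  obtain ⟨y, hy⟩ := Function.ne_iff.mp hF
  have h1 : PP 2 b (fun z => ∑ χ : B, ((χ : IrrCharacter G) : G → ℂ) g * vt u (χ : IrrCharacter G) z) =
      PP 2 b (fun _ => 0) := by
    apply PP_congr hM hl.1
    intro z hz
    have hpp : IsPPart 2 g⁻¹ (1 : G) := ⟨g⁻¹, by simp, Commute.one_left _, ⟨0, by simp⟩, by rwa [orderOf_inv]⟩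
    have hnc : ¬ IsConj u (1 : G) := by
      rw [isConj_one_left]
      exact hu1
    have h2 := Cfsg.Agent.Lib.Blocks.Heights.block_orthogonality_section hM (isPPart_mul' hxo hz) hpp hnc S.hB
    rw [← finsum_subtype_eq_finsum_cond, finsum_eq_sum_of_fintype] at h2
    rw [← h2]
    refine Fintype.sum_congr _ _ fun χ => ?_
    rw [inv_inv, mul_comm]
    rfl
  have h2 := congrFun h1 y
  rw [PP_linear, PP_zero] at h2
  simp only [Pi.zero_apply] at h2
  have h3 : (∑ χ : B, (du (χ : IrrCharacter G) : ℂ) * ((χ : IrrCharacter G) : G → ℂ) g) * PP 2 b (vt u τ) y = 0 := by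
    rw [← h2, Finset.sum_mul]
    refine Fintype.sum_congr _ _ fun χ => ?_
    rw [hf χ χ.2]
    ring
  exact (mul_eq_zero.mp h3).resolve_right hy

/-- The block part for the union of the blocks inducing `B`. -/
theorem blockPart_indU_eq_sum (hM : IsPModular 2 M) (hB : IsPBlock M B) (H : Subgroup G) [Fintype H]
    [Fintype (IrrCharacter H)] [Fintype {b : Set (IrrCharacter H) // IsInducedBlock M H b B}] (h : H → ℂ) (s : H) :
    blockPart (indU M H B) h s = ∑ i : {b : Set (IrrCharacter H) // IsInducedBlock M H b B}, blockPart i.1 h s := by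
  classical
  haveI := isPrime_of_pModular hM
  simp only [blockPart_apply]
  rw [Finset.sum_comm]
  refine Fintype.sum_congr _ _ fun ξ => ?_
  by_cases hξ : ξ ∈ indU M H B
  · rw [if_pos hξ]
    obtain ⟨B', hB', hind⟩ := hξ
    obtain ⟨χ, hχ⟩ := isPBlock_nonempty hind.2.1
    have hb : IsInducedBlock M H (blockOf M (ξ : H → ℂ)) B := by
      rwa [isPBlock_eq_blockOf hB (hB' hχ), ← isPBlock_eq_blockOf hind.2.1 hχ]
    rw [Finset.sum_eq_single (⟨_, hb⟩ : {b : Set (IrrCharacter H) // IsInducedBlock M H b B})]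
    · rw [if_pos (mem_blockOf_self ξ)]
    · intro i _ hi
      rw [if_neg]
      intro hmem
      apply hi
      apply Subtype.ext
      exact isPBlock_eq_blockOf i.2.1 hmem
    · simp
  · rw [if_neg hξ]
    symm
    refine Finset.sum_eq_zero fun i _ => ?_
    rw [if_neg]
    intro hmem
    apply hξ
    refine ⟨B, subset_rfl, ?_⟩
    rw [← isPBlock_eq_blockOf i.2.1 hmem]
    exact i.2

theorem card_centralizer_map {H H' : Type u} [Group H] [Group H'] [Finite H] (σ : H ≃* H') (m : H) :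
    Nat.card (Subgroup.centralizer ({σ m} : Set H')) = Nat.card (Subgroup.centralizer ({m} : Set H)) := by
  have h1 := Subgroup.card_mul_index (Subgroup.centralizer ({σ m} : Set H'))
  have h2 := Subgroup.card_mul_index (Subgroup.centralizer ({m} : Set H))
  rw [index_centralizer_map] at h1
  have h3 : Nat.card H' = Nat.card H := Nat.card_congr σ.symm.toEquiv
  have hi : (Subgroup.centralizer ({m} : Set H)).index ≠ 0 := Subgroup.index_ne_zero_of_finite
  exact Nat.eq_of_mul_eq_mul_right (Nat.pos_of_ne_zero hi) (by rw [h1, h2, h3])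

/-- **The columns of the character table at the singular elements.** -/
theorem KleinSetup.exists_expansion (S : KleinSetup M B P c₀) {d : G → IrrCharacter G → ℤ}
    (hd : ∀ u ∈ P, u ≠ 1 → LowerSign M B P c₀ τ u (d u)) {g : G} (hg : 2 ∣ orderOf g) :
    ∃ (ι : Type u) (_ : Fintype ι) (w : ι → G) (F : ι → ℂ), (∀ i, w i ∈ P ∧ w i ≠ 1) ∧
      (∀ i, MemLocalRing M (F i)) ∧
      (∀ i, MemLocalRing M (4 * F i / (Nat.card (Subgroup.centralizer ({g} : Set G)) : ℂ))) ∧
      ∀ χ : B, ((χ : IrrCharacter G) : G → ℂ) g = ∑ i, (d (w i) (χ : IrrCharacter G) : ℂ) * F i := by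
  classical
  haveI := isPrime_of_pModular S.hM
  have hM := S.hM
  obtain ⟨x, y, hxy, hcomm, hxk, hy⟩ := exists_isPPart (p := 2) g
  have hx1 : x ≠ 1 := by
    rintro rfl
    apply hy
    rw [one_mul] at hxy
    rwa [hxy]
  have hmem : y ∈ Cn x := by
    rw [Subgroup.mem_centralizer_singleton_iff]
    exact hcomm.symm.eq
  set s : Cn x := ⟨y, hmem⟩ with hs
  have hsr : ¬ 2 ∣ orderOf s := by
    rwa [hs, Subgroup.orderOf_mk]
  letI : Fintype {b : Set (IrrCharacter (Cn x)) // IsInducedBlock M (Cn x) b B} := Fintype.ofFinite _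
  choose gi xi hi hP hlow using fun i : {b : Set (IrrCharacter (Cn x)) // IsInducedBlock M (Cn x) b B} =>
    exists_isLower_of_block hM S.hmax hxk i.2
  have hxi1 : ∀ i, xi i ≠ 1 := by
    intro i h0
    apply hx1
    have h1 := hi i
    rw [h0] at h1
    have h2 : gi i * x * (gi i)⁻¹ = gi i * 1 * (gi i)⁻¹ := by rw [h1]; group
    exact mul_left_cancel (mul_right_cancel h2)
  have hxk' : ∀ i, orderOf (xi i) = 2 ^ 1 := fun i => by
    rw [pow_one]
    exact orderOf_eq_prime (S.hexp _ (hP i)) (hxi1 i)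
  have hl : ∀ (i) (χ : IrrCharacter G) (ξ : IrrCharacter (Cn (xi i))),
      MemLocalRing M (classInner (vt (xi i) χ) (ξ : Cn (xi i) → ℂ)) :=
    fun i χ ξ => (conj_sub_mem_of_Zr hM (classInner_vt_mem_Zr (hxk' i) χ ξ)).1
  refine ⟨_, inferInstance, xi, fun i => PP 2 (blockMap (kap (hi i)) i.1) (vt (xi i) τ) (kap (hi i) s),
    fun i => ⟨hP i, hxi1 i⟩, fun i => memLocalRing_PP (hl i τ) _, fun i => ?_, fun χ => ?_⟩
  · have hs' : ¬ 2 ∣ orderOf (kap (hi i) s) := by rwa [MulEquiv.orderOf_eq]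
    have h1 := memLocalRing_mul_PP_div hM (isPBlock_blockMap (kap (hi i)) i.2.1) (hl i τ) hs'
    rw [(hlow i).blockDefect_eq hM S.hmax S.hab S.hcard (hP i), card_centralizer_map,
      ← Cfsg.Agent.Lib.Blocks.NormSum.card_centralizer_section hxk hsr] at h1
    have e : x * ((s : Cn x) : G) = g := hxy
    rw [e] at h1
    have e2 : (((2 : ℕ) ^ 2 : ℕ) : ℂ) = 4 := by norm_num
    rwa [e2] at h1
  · have h1 := blockPart_sec hM hxk (Cfsg.Agent.Lib.Blocks.ClosedRank.isClosedB_of_isPBlock S.hB)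
      (χ : IrrCharacter G) s hsr
    rw [if_pos χ.2] at h1
    have e : x * ((s : Cn x) : G) = g := hxy
    rw [e] at h1
    rw [← h1]
    change blockPart _ (vt x (χ : IrrCharacter G)) s = _
    rw [blockPart_indU_eq_sum hM S.hB]
    refine Fintype.sum_congr _ _ fun i => ?_
    have e3 : blockPart i.1 (vt x (χ : IrrCharacter G)) s = PP 2 i.1 (vt x (χ : IrrCharacter G)) s := by
      rw [PP, pRegularPart_apply, if_pos (show IsPRegular 2 s from hsr)]
    rw [e3, ← PP_kap (p := 2) (χ : IrrCharacter G) (hi i) i.1 s]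
    obtain ⟨b, hlb, -, -, hf, -⟩ := hd (xi i) (hP i) (hxi1 i)
    obtain rfl := isLower_unique hM S.hmax.1.1 (hP i) hlb (hlow i)
    rw [hf _ χ.2]

end Main

section Data

variable {G : Type u} [Group G] [Fintype G] [Fintype (IrrCharacter G)] {M : Ideal AlgInt} [Fact (Nat.Prime 2)]
  {B : Set (IrrCharacter G)} {P : Subgroup G} {c₀ : Set (IrrCharacter (Subgroup.centralizer (P : Set G)))}
  [Fintype B]

/-- **The sign vectors.** -/
structure IsSignData (M : Ideal AlgInt) (B : Set (IrrCharacter G)) [Fintype B] (P : Subgroup G)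
    (c₀ : Set (IrrCharacter (Subgroup.centralizer (P : Set G)))) (d : G → IrrCharacter G → ℤ) : Prop where
  sign : ∀ u ∈ P, u ≠ 1 → ∀ χ : B, d u χ = 1 ∨ d u χ = -1
  stab : ∀ u ∈ P, u ≠ 1 → ∀ t ∈ stabSub P c₀, ∀ χ : B, d (t * u * t⁻¹) χ = d u χ
  ortho : ∀ u ∈ P, u ≠ 1 → ∀ v ∈ P, v ≠ 1 → (¬ ∃ t ∈ stabSub P c₀, t * u * t⁻¹ = v) →
    ∑ χ : B, d u χ * d v χ = 0
  reg : ∀ u ∈ P, u ≠ 1 → ∀ g : G, ¬ 2 ∣ orderOf g → ∑ χ : B, (d u χ : ℂ) * ((χ : IrrCharacter G) : G → ℂ) g = 0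
  sing : ∀ g : G, 2 ∣ orderOf g → ∃ (ι : Type u) (_ : Fintype ι) (w : ι → G) (F : ι → ℂ),
    (∀ i, w i ∈ P ∧ w i ≠ 1) ∧ (∀ i, MemLocalRing M (F i)) ∧
    (∀ i, MemLocalRing M (4 * F i / (Nat.card (Subgroup.centralizer ({g} : Set G)) : ℂ))) ∧
    ∀ χ : B, ((χ : IrrCharacter G) : G → ℂ) g = ∑ i, (d (w i) (χ : IrrCharacter G) : ℂ) * F i

theorem KleinSetup.exists_isSignData (S : KleinSetup M B P c₀) : ∃ d, IsSignData M B P c₀ d := by
  classical
  haveI := isPrime_of_pModular S.hM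
  letI : ∀ x : G, Fintype (Cn x) := fun x => Fintype.ofFinite _
  haveI : ∀ x : G, Finite (IrrCharacter (Cn x)) := fun x => Cfsg.Agent.Lib.Char.Ortho.finite_irrCharacter
  letI : ∀ x : G, Fintype (IrrCharacter (Cn x)) := fun x => Fintype.ofFinite _
  obtain ⟨τ, hτ⟩ := isPBlock_nonempty S.hB
  choose! d hd using fun x (hx : x ∈ P) (hx1 : x ≠ 1) => S.exists_lowerSign hτ hx hx1
  refine ⟨d, ?_, ?_, ?_, ?_, ?_⟩
  · intro u hu hu1 χ
    obtain ⟨-, -, h, -⟩ := hd u hu hu1
    exact h χ χ.2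
  · intro u hu hu1 t ht χ
    have hv : t * u * t⁻¹ ∈ P := (Subgroup.mem_normalizer_iff.mp ht.1 u).mp hu
    have hv1 : t * u * t⁻¹ ≠ 1 := by
      intro h
      apply hu1
      have h2 : t * u * t⁻¹ = t * 1 * t⁻¹ := by rw [h]; group
      exact mul_left_cancel (mul_right_cancel h2)
    exact S.lowerSign_conj hv ht rfl (hd u hu hu1) (hd _ hv hv1) χ.2
  · intro u hu hu1 v hv hv1 hn
    exact S.lowerSign_ortho hu hv hu1 hv1 hn (hd u hu hu1) (hd v hv hv1)
  · intro u hu hu1 g hg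
    exact S.lowerSign_reg hu hu1 (hd u hu hu1) hg
  · intro g hg
    exact S.exists_expansion hd hg

end Data

end Cfsg.Agent.Lib.KleinBlock.SignData
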