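import Mathlib
import Cfsg.Agent.Lib.KleinBlock.SignData
import Cfsg.Agent.Lib.KleinBlock.Trans
import Cfsg.Agent.Lib.KleinBlock.Combi
import Cfsg.Agent.Lib.KleinBlock.Perfect

/-!
# A block with Klein four defect group is perfectly isometric to its Brauer correspondent
-/

set_option linter.unusedSectionVars false
set_option linter.style.haveILetI false
set_option autoImplicit false

namespace Cfsg.Agent.Lib.KleinBlock.Main

open Cfsg
open Cfsg.Agent.Lib.Blocks.Local Cfsg.Agent.Lib.Blocks.Central Cfsg.Agent.Lib.Blocks.Defect2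
open Cfsg.Agent.Lib.BlockH.Transport Cfsg.Agent.Lib.BlockH.MaxPair Cfsg.Agent.Lib.BlockH.Descent
open Cfsg.Agent.Lib.BlockH.InducedPairs Cfsg.Agent.Lib.BlockH.Sylow
open Cfsg.Agent.Lib.KleinBlock.Count Cfsg.Agent.Lib.KleinBlock.SignData Cfsg.Agent.Lib.KleinBlock.Trans
open Cfsg.Agent.Lib.KleinBlock.Combi Cfsg.Agent.Lib.KleinBlock.Perfect

universe u

section Desc

variable {G : Type u} [Group G] [Fintype G]

theorem mem_stabSub_desc {L : Subgroup G} [Fintype L] {X' : Subgroup L} {X : Subgroup G} (h : X'.map L.subtype = X)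
    (hC : Subgroup.centralizer (X : Set G) ≤ L) {f : Set (IrrCharacter (Subgroup.centralizer (X' : Set L)))} {u : L} :
    (u : G) ∈ stabSub X (blockMap (descEquiv h hC) f) ↔ u ∈ stabSub X' f := by
  constructor
  · rintro ⟨h1, h2⟩
    have hu := (normalizer_iff_of_map h).mp h1
    exact ⟨hu, (stabilizesBlock_desc h hC hu).mp h2⟩
  · rintro ⟨h1, h2⟩
    exact ⟨(normalizer_iff_of_map h).mpr h1, (stabilizesBlock_desc h hC h1).mpr h2⟩

end Desc

section Orbit

variable {G : Type u} [Group G] [Fintype G] {P : Subgroup G}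

theorem orbit_dichotomy (hcard : Nat.card P = 4) (hexp : ∀ a ∈ P, a ^ 2 = 1) {T : Subgroup G}
    (hTN : T ≤ Subgroup.normalizer (P : Set G))
    (hodd : ¬ 2 ∣ (Subgroup.centralizer (P : Set G)).relIndex T)
    (he : (Subgroup.centralizer (P : Set G)).relIndex T = 1 ∨ (Subgroup.centralizer (P : Set G)).relIndex T = 3)
    {x a : G} (hx : x ∈ P) (ha : a ∈ P) (hx1 : x ≠ 1) (ha1 : a ≠ 1) (hax : a ≠ x) :
    (∀ u ∈ P, u ≠ 1 → ∀ v ∈ P, v ≠ 1 → ∃ t ∈ T, t * u * t⁻¹ = v) ∨
      (∀ u ∈ P, u ≠ 1 → ∀ v, (∃ t ∈ T, t * u * t⁻¹ = v) → v = u) := by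
  classical
  rcases he with he | he
  · right
    intro u hu hu1 v hv
    have h1 := ncard_orbit hcard hexp hTN hodd hu hu1
    rw [he] at h1
    obtain ⟨w, hw⟩ := Set.ncard_eq_one.mp h1
    have hu' : u ∈ {y : G | ∃ t ∈ T, t * u * t⁻¹ = y} := ⟨1, T.one_mem, by group⟩
    have hv' : v ∈ {y : G | ∃ t ∈ T, t * u * t⁻¹ = y} := hv
    rw [hw] at hu' hv'
    rw [Set.mem_singleton_iff.mp hu']
    exact hv'
  · left
    intro u hu hu1 v hv hv1
    have h1 := ncard_orbit hcard hexp hTN hodd hu hu1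
    rw [he] at h1
    set F : Finset G := {x, a, x * a} with hF
    have hF3 : F.card ≤ 3 := Finset.card_le_three
    have hO : {y : G | ∃ t ∈ T, t * u * t⁻¹ = y} ⊆ (F : Set G) := by
      rintro y ⟨t, ht, rfl⟩
      have hy : t * u * t⁻¹ ∈ P := (Subgroup.mem_normalizer_iff.mp (hTN ht) u).mp hu
      have hy1 : t * u * t⁻¹ ≠ 1 := by
        intro h
        apply hu1
        have h2 : t * u * t⁻¹ = t * 1 * t⁻¹ := by rw [h]; group
        exact mul_left_cancel (mul_right_cancel h2)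
      rcases klein_eq hcard hexp hx ha hx1 ha1 hax hy with h | h | h | h
      · exact absurd h hy1
      · simp [hF, h]
      · simp [hF, h]
      · simp [hF, h]
    have heq := Set.eq_of_subset_of_ncard_le hO (by rw [h1, Set.ncard_coe_finset]; exact hF3) (Finset.finite_toSet F)
    have hvF : v ∈ (F : Set G) := by
      rcases klein_eq hcard hexp hx ha hx1 ha1 hax hv with h | h | h | h
      · exact absurd h hv1
      · simp [hF, h]
      · simp [hF, h]
      · simp [hF, h]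
    rw [← heq] at hvF
    exact hvF

end Orbit

section Main

variable {G : Type u} [Group G] [Fintype G] {M : Ideal AlgInt} [Fact (Nat.Prime 2)]

/-- **A block with Klein four defect group is perfectly isometric to its Brauer correspondent.** -/
theorem exists_perfect (hM : IsPModular 2 M) {B : Set (IrrCharacter G)} (hB : IsPBlock M B) {P : Subgroup G}
    (hPD : IsDefectGroup 2 M B P) (hcard : Nat.card P = 4) (hexp : ∀ a ∈ P, a ^ 2 = 1)
    (hab : ∀ a ∈ P, ∀ b ∈ P, a * b = b * a) {N : Subgroup G} (hN : N = Subgroup.normalizer (P : Set G))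
    {c : Set (IrrCharacter N)}
    (hcD : IsDefectGroup 2 M c (P.subgroupOf N))
    (hc : IsInducedBlock M N c B)
    (he : ∀ c₀ : Set (IrrCharacter (Subgroup.centralizer (P : Set G))),
      IsInducedBlock M (Subgroup.centralizer (P : Set G)) c₀ B →
      (Subgroup.centralizer (P : Set G)).relIndex (stabSub P c₀) = 1 ∨
        (Subgroup.centralizer (P : Set G)).relIndex (stabSub P c₀) = 3) :
    ∃ (I : IrrCharacter N → IrrCharacter G) (ε : IrrCharacter N → ℤ), IsPerfectIsometry 2 M c B I ε := by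
  classical
  haveI := isPrime_of_pModular hM
  haveI := Cfsg.Agent.Lib.Char.Ortho.finite_irrCharacter (G := G)
  letI : Fintype (IrrCharacter G) := Fintype.ofFinite _
  have hPN : P ≤ N := hN ▸ Subgroup.le_normalizer
  have hX : (P.subgroupOf N).map N.subtype = P := Subgroup.map_subgroupOf_eq_of_le hPN
  have hC : Subgroup.centralizer (P : Set G) ≤ N := hN ▸ centralizer_le_normalizer'' P
  have hNN : Subgroup.normalizer (P : Set G) ≤ N := hN.ge
  letI : Fintype N := Fintype.ofFinite _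
  have hPp := isDefectGroup_isPGroup hPD
  -- a maximal pair of `c`
  obtain ⟨D, e₁, hmax₁⟩ := exists_isMaximalBrauerPair hM hc.1
  have hD₁ := Cfsg.Agent.Lib.BlockH.MaxPair.isDefectGroup_of_isMaximal hM hmax₁
  have hDP : D = P.subgroupOf N := by
    obtain ⟨y, hy⟩ := isDefectGroup_exists_conj_eq hM hc.1 hD₁ hcD
    haveI hnor : (P.subgroupOf N).Normal := by
      subst hN
      exact (Cfsg.Agent.Lib.Blocks.Inducing.isBrauerPair_normalizer hPp).normal
    apply Subgroup.eq_of_le_of_card_ge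
    · intro d hd
      have h1 : y * d * y⁻¹ ∈ P.subgroupOf N := by
        rw [hy]
        exact ⟨d, hd, rfl⟩
      have h2 := hnor.conj_mem _ h1 y⁻¹
      have e : y⁻¹ * (y * d * y⁻¹) * y⁻¹⁻¹ = d := by group
      rwa [e] at h2
    · rw [hy, Subgroup.card_map_of_injective (MulEquiv.injective _)]
  subst hDP
  -- the pair of `B`
  set c₀ := blockMap (descEquiv hX hC) e₁ with hc₀
  have hind₁ := isInducedBlock_of_isBrauerPairOf hM hmax₁.1
  have hI : IsInducedBlock M (Subgroup.centralizer (P : Set G)) c₀ B := isInducedBlock_desc hX hC hind₁ hc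
  have hpair := Cfsg.Agent.Lib.Contrib.Section.isBrauerPairOf_of_induced hM hPp hI
  have hmax := isMaximal_of_isDefectGroup hM hpair hPD
  -- the settings
  have hcard' : Nat.card (P.subgroupOf N) = 4 := by
    rw [← hcard]
    exact Nat.card_congr (Subgroup.subgroupOfEquivOfLe hPN).toEquiv
  have hexp' : ∀ a ∈ P.subgroupOf N, a ^ 2 = 1 := by
    intro a ha
    apply Subtype.ext
    simpa using hexp _ (Subgroup.mem_subgroupOf.mp ha)
  have hab' : ∀ a ∈ P.subgroupOf N, ∀ b ∈ P.subgroupOf N, a * b = b * a := fun a ha b hb =>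
    Subtype.ext (hab _ (Subgroup.mem_subgroupOf.mp ha) _ (Subgroup.mem_subgroupOf.mp hb))
  have SG : KleinSetup M B P c₀ := ⟨hM, hB, hPD, hcard, hexp, hab, hmax⟩
  have SN : KleinSetup M c (P.subgroupOf N) e₁ := ⟨hM, hc.1, hcD, hcard', hexp', hab', hmax₁⟩
  haveI := Cfsg.Agent.Lib.Char.Ortho.finite_irrCharacter (G := N)
  letI : Fintype (IrrCharacter N) := Fintype.ofFinite _
  letI : Fintype B := Fintype.ofFinite _
  letI : Fintype c := Fintype.ofFinite _
  have hB4 : Fintype.card B = 4 := by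
    rw [← Nat.card_eq_fintype_card]
    exact Cfsg.Agent.Lib.KleinBlock.Card.card_eq_four hM hB hPD hcard hab hexp
  have hc4 : Fintype.card c = 4 := by
    rw [← Nat.card_eq_fintype_card]
    exact Cfsg.Agent.Lib.KleinBlock.Card.card_eq_four hM hc.1 hcD hcard' hab' hexp'
  obtain ⟨d, hd⟩ := SG.exists_isSignData
  obtain ⟨d', hd'⟩ := SN.exists_isSignData
  -- the elements of `P`
  haveI : Nontrivial P := (Finite.one_lt_card_iff_nontrivial).mp (by rw [hcard]; norm_num)
  obtain ⟨x₀, hx₀⟩ := exists_ne (1 : P)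
  have hx1 : (x₀ : G) ≠ 1 := fun h => hx₀ (Subtype.ext h)
  obtain ⟨a₀, ha₀⟩ : ∃ a₀ : P, a₀ ≠ 1 ∧ a₀ ≠ x₀ := by
    by_contra hcon
    push Not at hcon
    have hcard2 : Nat.card P ≤ 2 := by
      rw [Nat.card_eq_fintype_card]
      have : (Finset.univ : Finset P) ⊆ {1, x₀} := by
        intro b _
        by_cases hb : b = 1
        · simp [hb]
        · simp [hcon b hb]
      calc Fintype.card P = (Finset.univ : Finset P).card := rfl
        _ ≤ ({1, x₀} : Finset P).card := Finset.card_le_card this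
        _ ≤ 2 := Finset.card_le_two
    omega
  have ha1 : (a₀ : G) ≠ 1 := fun h => ha₀.1 (Subtype.ext h)
  have hax : (a₀ : G) ≠ x₀ := fun h => ha₀.2 (Subtype.ext h)
  have hxa1 : (x₀ : G) * a₀ ≠ 1 := by
    intro h
    apply hax
    have h1 := hexp x₀ x₀.2
    calc (a₀ : G) = x₀ * x₀ * a₀ := by rw [← pow_two, h1, one_mul]
      _ = x₀ * (x₀ * a₀) := by group
      _ = x₀ := by rw [h, mul_one]
  have hxax : (x₀ : G) * a₀ ≠ x₀ := fun h => ha1 (by simpa using h)
  have hxaa : (x₀ : G) * a₀ ≠ a₀ := fun h => hx1 (by simpa using h)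
  -- the index set
  let W := {u : G // u ∈ P ∧ u ≠ 1}
  let ι : W → N := fun u => ⟨u, hPN u.2.1⟩
  have hιP : ∀ u : W, ι u ∈ P.subgroupOf N := fun u => Subgroup.mem_subgroupOf.mpr u.2.1
  have hι1 : ∀ u : W, ι u ≠ 1 := fun u h => u.2.2 (congrArg Subtype.val h)
  let x : W := ⟨x₀, x₀.2, hx1⟩
  let y : W := ⟨a₀, a₀.2, ha1⟩
  let z : W := ⟨(x₀ : G) * a₀, P.mul_mem x₀.2 a₀.2, hxa1⟩
  have hW : ∀ u : W, u = x ∨ u = y ∨ u = z := by
    intro u
    rcases klein_eq hcard hexp x₀.2 a₀.2 hx1 ha1 hax u.2.1 with h | h | h | h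
    · exact absurd h u.2.2
    · exact Or.inl (Subtype.ext h)
    · exact Or.inr (Or.inl (Subtype.ext h))
    · exact Or.inr (Or.inr (Subtype.ext h))
  -- the relation
  let R : W → W → Prop := fun u v => ∃ t ∈ stabSub P c₀, t * (u : G) * t⁻¹ = v
  have hR' : ∀ u v : W, (∃ t ∈ stabSub (P.subgroupOf N) e₁, t * ι u * t⁻¹ = ι v) ↔ R u v := by
    intro u v
    constructor
    · rintro ⟨t, ht, h⟩
      exact ⟨t, (mem_stabSub_desc hX hC).mpr ht, congrArg Subtype.val h⟩
    · rintro ⟨t, ht, h⟩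
      have htN : t ∈ N := hNN ht.1
      refine ⟨⟨t, htN⟩, (mem_stabSub_desc hX hC).mp ht, Subtype.ext h⟩
  have hRd : ∀ u v : W, R u v → (fun χ : B => d u χ) = fun χ : B => d v χ := by
    rintro u v ⟨t, ht, h⟩
    funext χ
    have := hd.stab u u.2.1 u.2.2 t ht χ
    rw [h] at this
    exact this.symm
  have hRe : ∀ u v : W, R u v → (fun η : c => d' (ι u) η) = fun η : c => d' (ι v) η := by
    intro u v h
    obtain ⟨t, ht, h⟩ := (hR' u v).mpr h
    funext η
    have := hd'.stab (ι u) (hιP u) (hι1 u) t ht η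
    rw [h] at this
    exact this.symm
  have hod : ∀ u v : W, ¬ R u v → ∑ χ : B, d u χ * d v χ = 0 := fun u v h =>
    hd.ortho u u.2.1 u.2.2 v v.2.1 v.2.2 h
  have hoe : ∀ u v : W, ¬ R u v → ∑ η : c, d' (ι u) η * d' (ι v) η = 0 := fun u v h =>
    hd'.ortho (ι u) (hιP u) (hι1 u) (ι v) (hιP v) (hι1 v) (fun h2 => h ((hR' u v).mp h2))
  have hodd := Cfsg.Agent.Lib.BlockH.CyclicDefect.not_dvd_relIndex_stab hM hmax hab
  have hcase : (∀ u v : W, R u v) ∨ (¬ R x y ∧ ¬ R x z ∧ ¬ R y z) := by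
    rcases orbit_dichotomy hcard hexp stabSub_le_normalizer hodd (he c₀ hI) x₀.2 a₀.2 hx1 ha1 hax with h | h
    · exact Or.inl fun u v => h u u.2.1 u.2.2 v v.2.1 v.2.2
    · refine Or.inr ⟨fun h0 => hax (h _ x₀.2 hx1 _ h0), fun h0 => hxax (h _ x₀.2 hx1 _ h0), fun h0 => hxaa (h _ a₀.2 ha1 _ h0)⟩
  obtain ⟨I, ε, hε, hcomp⟩ := exists_signed_bij (W := W) (d := fun u (χ : B) => d u χ)
    (e := fun u (η : c) => d' (ι u) η) hB4 hc4 hW
    (fun u χ => hd.sign u u.2.1 u.2.2 χ) (fun u η => hd'.sign (ι u) (hιP u) (hι1 u) η) hRd hRe hod hoe hcase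
  obtain ⟨τ₀, -⟩ := isPBlock_nonempty hB
  refine exists_isPerfectIsometry (W := W) (dB := fun u (χ : B) => d u χ) (dc := fun u (η : c) => d' (ι u) η)
    hM τ₀ hε hcomp (fun u g hg => hd.reg u u.2.1 u.2.2 g hg) (fun u g hg => hd'.reg (ι u) (hιP u) (hι1 u) g hg) ?_ ?_ ?_
  · intro g hg
    obtain ⟨κ, hκ, w, F, hw, hF1, hF2, hF3⟩ := hd.sing g hg
    exact ⟨κ, hκ, fun i => ⟨w i, hw i⟩, F, hF1, hF2, hF3⟩
  · intro g hg
    obtain ⟨κ, hκ, w, F, hw, hF1, hF2, hF3⟩ := hd'.sing g hg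
    refine ⟨κ, hκ, fun i => ⟨(w i : G), Subgroup.mem_subgroupOf.mp (hw i).1, fun h => (hw i).2 (Subtype.ext h)⟩,
      F, hF1, hF2, hF3⟩
  · intro u v
    by_cases h : R u v
    · right
      have h1 : ∀ η : c, d' (ι u) η = d' (ι v) η := fun η => congrFun (hRe u v h) η
      have h2 : ∀ η : c, d' (ι u) η * d' (ι v) η = 1 := by
        intro η
        rw [← h1 η]
        exact sign_sq (hd'.sign (ι u) (hιP u) (hι1 u) η)
      simp only [h2]
      simp [hc4]
    · left
      exact hoe u v h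

end Main

end Cfsg.Agent.Lib.KleinBlock.Main
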